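import Cfsg.Agent.H900.C7.Unip
import Cfsg.Agent.H883.C7.NIface
import Cfsg.Agent.H883.C7.Rad

/-!
# Siegel elements of slot `i` normalising a conjugate of the algebra of slot `j`
-/

set_option autoImplicit false
set_option linter.unusedSectionVars false
set_option linter.unusedSimpArgs false
set_option linter.unusedVariables false

namespace Cfsg.Agent.H900.C7

open QuadraticMap hiding proj
open Cfsg.Agent.LieClassical.OrthCore Cfsg.Agent.LieClassical.OrthTrans
open Cfsg.Agent.H882.Ten Cfsg.Agent.H883.C7 Cfsg.Agent.LieClassical.OrthFinite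

variable {F : Type*} [Field F] {κ : Type*} [Fintype κ] [DecidableEq κ] {ι : Type*} [Fintype ι] [DecidableEq ι]
  {q : QuadraticForm F (κ → F)} {M : Subgroup (((ι → κ) → F) ≃ₗ[F] ((ι → κ) → F))}

/-- The context. -/
structure Ctx (q : QuadraticForm F (κ → F)) (M : Subgroup (((ι → κ) → F) ≃ₗ[F] ((ι → κ) → F))) : Prop where
  h7 : Hyp7 q
  ht : 2 ≤ Fintype.card ι
  ov : Over q M
  hD : DProp q M
  sing : ∃ x : κ → F, x ≠ 0 ∧ q x = 0

theorem Ctx.le_O [Finite F] (C : Ctx q M) : M ≤ O (QT q ι) := Over.le_O C.ov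

theorem Ctx.siegel_mem [Finite F] (C : Ctx q M) (i : ι) {w y : κ → F} (hw : q w = 0) (hy : polar q w y = 0) :
    slE i (siegel q w y hw hy) ∈ M := Over.siegel_mem C.ov C.h7.two (C.h7.good C.ht) i hw hy

theorem finrank_tensor (i : ι) : Module.finrank F ((ι → κ) → F) =
    Module.finrank F (({l // l ≠ i} → κ) → F) * Module.finrank F (κ → F) := by
  rw [← (isTen F κ i).equiv.finrank_eq, Module.finrank_tensorProduct]

/-- The fixed space of a slot Siegel element. -/
theorem finrank_fx_siegel (i : ι) {w y : κ → F} (hw : q w = 0) (hy : polar q w y = 0) (h2 : (2 : F) ≠ 0)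
    (hq : Nondeg q) :
    Module.finrank F (({l // l ≠ i} → κ) → F) * (Module.finrank F (κ → F) - 2) ≤
      Module.finrank F (fx (slE (ι := ι) i (siegel q w y hw hy))) := by
  set s := slE (ι := ι) i (siegel q w y hw hy) with hs
  have S := tst (ι := ι) h2 hq i
  have hrn := LinearMap.finrank_range_add_finrank_ker ((s : Module.End F ((ι → κ) → F)) - 1)
  have hr : Module.finrank F (LinearMap.range ((s : Module.End F ((ι → κ) → F)) - 1)) ≤
      2 * Module.finrank F (({l // l ≠ i} → κ) → F) := by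
    let Λ : ((({l // l ≠ i} → κ) → F) × (({l // l ≠ i} → κ) → F)) →ₗ[F] ((ι → κ) → F) :=
      ((ten F κ i).flip y).coprod ((ten F κ i).flip w)
    have hle : LinearMap.range ((s : Module.End F ((ι → κ) → F)) - 1) ≤ LinearMap.range Λ := by
      rintro _ ⟨v, rfl⟩
      induction v using (isTen F κ i).inductionOn with
      | zero => rw [map_zero]; exact Submodule.zero_mem _
      | tmul a u =>
        refine ⟨(polar q w u • a, -(polar q y u • a) - (q y * polar q w u) • a), ?_⟩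
        have e1 : ((s : Module.End F ((ι → κ) → F)) - 1) (ten F κ i a u) = s (ten F κ i a u) - ten F κ i a u := rfl
        rw [e1, hs, slE_ten, siegel_apply]
        show ten F κ i _ y + ten F κ i _ w = _
        simp only [LinearMap.fst_apply, LinearMap.snd_apply, map_add, map_sub, map_smul, map_neg, LinearMap.add_apply,
          LinearMap.sub_apply, LinearMap.smul_apply, LinearMap.neg_apply]
        module
      | add x y hx hy => rw [map_add]; exact Submodule.add_mem _ hx hy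
    refine (Submodule.finrank_mono hle).trans ((LinearMap.finrank_range_le Λ).trans ?_)
    rw [Module.finrank_prod]
    omega
  have hV := finrank_tensor (F := F) (κ := κ) i
  rw [hV] at hrn
  have e : fx s = LinearMap.ker ((s : Module.End F ((ι → κ) → F)) - 1) := rfl
  rw [e, Nat.mul_sub, mul_comm _ 2]
  omega

theorem finrank_fx_conj {V : Type*} [AddCommGroup V] [Module F V] [FiniteDimensional F V] (g d : V ≃ₗ[F] V) :
    Module.finrank F (fx d) ≤ Module.finrank F (fx (g⁻¹ * d * g)) := by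
  let Λ : fx d →ₗ[F] fx (g⁻¹ * d * g) :=
    ((g⁻¹ : V ≃ₗ[F] V) : V →ₗ[F] V).restrict (p := fx d) (q := fx (g⁻¹ * d * g)) (by
      intro v hv
      rw [mem_fx] at hv ⊢
      have h1 : ∀ v, g (g⁻¹ v) = v := fun v => LinearEquiv.apply_symm_apply g v
      show g⁻¹ (d (g (g⁻¹ v))) = g⁻¹ v
      rw [h1, hv])
  refine LinearMap.finrank_le_finrank_of_injective (f := Λ) ?_
  intro a b hab
  exact Subtype.ext ((g⁻¹ : V ≃ₗ[F] V).injective (congrArg Subtype.val hab))

theorem siegel_smul_eq (h2 : (2 : F) ≠ 0) {w y : κ → F} (hw : q w = 0) (hy : polar q w y = 0) (c : F)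
    (hcy : polar q w (c • y) = 0) :
    ((siegel q w (c • y) hw hcy : (κ → F) ≃ₗ[F] (κ → F)) : Module.End F (κ → F)) =
      1 + c • (((siegel q w y hw hy : (κ → F) ≃ₗ[F] (κ → F)) : Module.End F (κ → F)) - 1) +
      (c * (c - 1) * 2⁻¹) • ((((siegel q w y hw hy : (κ → F) ≃ₗ[F] (κ → F)) : Module.End F (κ → F)) - 1) *
        (((siegel q w y hw hy : (κ → F) ≃ₗ[F] (κ → F)) : Module.End F (κ → F)) - 1)) := by
  rw [siegel_sub_one_sq, siegel_eq, siegel_eq, nn_smul_right, QuadraticMap.map_smul, smul_smul]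
  have e : c * (c - 1) * 2⁻¹ * -(2 * q y) = -(c * (c - 1)) * q y := by field_simp
  rw [e, smul_eq_mul]
  module

/-- The trichotomy. -/
theorem tri [Finite F] (C : Ctx q M) {g : ((ι → κ) → F) ≃ₗ[F] ((ι → κ) → F)} (hg : g ∈ M) {i j : ι} {w y : κ → F}
    (hw0 : w ≠ 0) (hw : q w = 0) (hy : polar q w y = 0) (hqy : q y ≠ 0)
    (h : Carries (g⁻¹ * slE i (siegel q w y hw hy) * g) j j) :
    Carries g j i ∨ ∀ f : Module.End F (κ → F),
      cj g (sl j f) * sl i (siegel q w y hw hy : (κ → F) ≃ₗ[F] (κ → F)) =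
        sl i (siegel q w y hw hy : (κ → F) ≃ₗ[F] (κ → F)) * cj g (sl j f) := by
  have h2 := C.h7.two
  have hq := C.h7.nd
  have hk3 := C.h7.three
  set d := slE (ι := ι) i (siegel q w y hw hy) with hd
  set x₀ := g⁻¹ * d * g with hx₀
  have hdM : d ∈ M := C.siegel_mem i hw hy
  have hxM : x₀ ∈ M := M.mul_mem (M.mul_mem (M.inv_mem hg) hdM) hg
  have hxO : x₀ ∈ O (QT q ι) := C.le_O hxM
  have hxe : (x₀ : Module.End F ((ι → κ) → F)) = cj g⁻¹ (sl i (siegel q w y hw hy : (κ → F) ≃ₗ[F] (κ → F))) := by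
    rw [← slE_toEnd, cj_toEnd, inv_inv]
  have hcj1 : ∀ T : Module.End F ((ι → κ) → F), cj g⁻¹ T - 1 = cj g⁻¹ (T - 1) := fun T => by
    rw [cj_sub', cj_one']
  have hcube : ((x₀ : Module.End F ((ι → κ) → F)) - 1) ^ 3 = 0 := by
    rw [hxe, hcj1]
    have h1 : sl i ((siegel q w y hw hy : (κ → F) ≃ₗ[F] (κ → F)) : Module.End F (κ → F)) - 1 =
        slA i (((siegel q w y hw hy : (κ → F) ≃ₗ[F] (κ → F)) : Module.End F (κ → F)) - 1) := by
      rw [map_sub, map_one]; rfl
    rw [pow_succ, pow_two, ← cj_mul', ← cj_mul', ← pow_two, ← pow_succ, h1, ← map_pow, siegel_sub_one_cube, map_zero,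
      cj_zero']
  have hne : Nontrivial (κ → F) := ⟨w, 0, hw0⟩
  have hneR : Nontrivial (({l // l ≠ j} → κ) → F) := by
    obtain ⟨b, -⟩ := Function.ne_iff.1 hw0
    have : Nonempty ({l // l ≠ j} → κ) := ⟨fun _ => b⟩
    exact Function.nontrivial
  obtain ⟨k, l, hkl⟩ := carries_tm hw0 h
  have S := tst (ι := ι) h2 hq j
  have hkl' : x₀ = tm S.ten k l := hkl
  rw [hkl'] at hxO hcube
  obtain ⟨α, β, hab, hαO, hβO, hαn, hβn⟩ := unip_form S hxO hcube
  rw [← hkl'] at hab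
  by_cases hα1 : α = 1
  · -- the element lies in slot `j`
    left
    have h1 : cj g⁻¹ (sl i (siegel q w y hw hy : (κ → F) ≃ₗ[F] (κ → F))) = sl j (β : Module.End F (κ → F)) := by
      rw [← hxe, hab, hα1]
      refine ext_t (isTen F κ j) fun a u => ?_
      rw [sl_ten, LinearEquiv.coe_coe, tm_apply]
      rfl
    have h3 := carries_symm hw0 (carries_of_siegel h2 hq C.hD (M.inv_mem hg) hw0 hw hy hqy h1)
    rwa [inv_inv] at h3
  by_cases hβ1 : β = 1
  · -- the element centralises slot `j`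
    right
    intro f
    rw [comm_cj, ← hxe, hab, hβ1]
    refine ext_t (isTen F κ j) fun a u => ?_
    rw [Module.End.mul_apply, Module.End.mul_apply, sl_ten, LinearEquiv.coe_coe, tm_apply, tm_apply, sl_ten]
    rfl
  exfalso
  rw [hab] at hx₀
  have hfr : Module.finrank F (κ → F) = Fintype.card κ := Module.finrank_fintype_fun_eq_card F
  have hfix : Module.finrank F (({l // l ≠ j} → κ) → F) * (Module.finrank F (κ → F) - 2) ≤
      Module.finrank F (fx (tm S.ten α β)) := by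
    rw [hx₀, finrank_rest j i]
    exact (finrank_fx_siegel i hw hy h2 hq).trans (finrank_fx_conj g d)
  obtain ⟨hW3, hr, hle⟩ := caseA' S (nondeg_QT h2 hq) hβO hβn hα1 hβ1 (by rw [hfr]; exact hk3)
    (by rw [hfr]; exact C.h7.four) hfix
  rw [hfr] at hW3
  have h5 := C.h7.five hW3
  obtain ⟨c, hc0, hc1, hc2⟩ : ∃ c : F, c ≠ 0 ∧ c ≠ 1 ∧ c ≠ 2 := by
    classical
    have := Fintype.ofFinite F
    rw [Nat.card_eq_fintype_card] at h5
    by_contra hcon
    push Not at hcon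
    have h1 : (Finset.univ : Finset F) ⊆ {0, 1, 2} := by
      intro c _
      by_cases hc0 : c = 0
      · simp [hc0]
      by_cases hc1 : c = 1
      · simp [hc1]
      simp [hcon c hc0 hc1]
    have h3 := Finset.card_le_card h1
    have h4 : ({0, 1, 2} : Finset F).card ≤ 3 := Finset.card_le_three
    rw [Finset.card_univ] at h3
    omega
  have hcy : polar q w (c • y) = 0 := by rw [polar_smul_right, hy, smul_zero]
  set s := g⁻¹ * slE (ι := ι) i (siegel q w (c • y) hw hcy) * g with hs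
  have hsM : s ∈ M := M.mul_mem (M.mul_mem (M.inv_mem hg) (C.siegel_mem i hw hcy)) hg
  have hse : (s : Module.End F ((ι → κ) → F)) = cj g⁻¹ (sl i (siegel q w (c • y) hw hcy : (κ → F) ≃ₗ[F] (κ → F))) := by
    rw [← slE_toEnd, cj_toEnd, inv_inv]
  rw [← hkl', hab] at hcube
  rw [hab] at hxe
  refine caseA3 S hβO (by rw [hfr]; exact hW3) hr hle hαn hα1 hcube
    hc0 hc1 hc2 (s := s) ?_ ?_
  · rw [hse, siegel_smul_eq h2 hw hy c hcy, sl_add, sl_add, sl_one, sl_smul, sl_smul, sl_mul, sl_sub, sl_one,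
      cj_add', cj_add', cj_one', cj_smul', cj_smul', cj_mul', cj_sub', cj_one', ← hxe]
  · intro w₁ hw₁0 hw₁ hw₁s
    have h1 : Carries s j j := C.hD s hsM j j w₁ w₁ hw₁0 hw₁0 hw₁ hw₁s
    exact carries_tm hw₁0 h1

/-- **Fixed conjugates.** -/
theorem fix [Finite F] (C : Ctx q M) {g : ((ι → κ) → F) ≃ₗ[F] ((ι → κ) → F)} (hg : g ∈ M) {i j : ι} {w y : κ → F}
    (hw0 : w ≠ 0) (hw : q w = 0) (hy : polar q w y = 0) (hqy : q y ≠ 0)
    (h : Carries (g⁻¹ * slE i (siegel q w y hw hy) * g) j j) :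
    Carries g j i ∨ ∀ f f' : Module.End F (κ → F), cj g (sl j f) * sl i f' = sl i f' * cj g (sl j f) := by
  have h2 := C.h7.two
  have hq := C.h7.nd
  have hk3 := C.h7.three
  obtain ⟨w', hyp⟩ := LieClassical.OrthTrans.exists_hyp hq hw hw0
  by_cases hcar : Carries g j i
  · exact Or.inl hcar
  right
  have hcomm := (tri C hg hw0 hw hy hqy h).resolve_left hcar
  -- `cj g (sl j f)` commutes with `ω_w` in slot `i`
  have hom : ∀ f : Module.End F (κ → F), cj g (sl j f) * sl i (om q w) = sl i (om q w) * cj g (sl j f) := by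
    intro f
    have hc : -(2 * q y) ≠ 0 := neg_ne_zero.2 (mul_ne_zero h2 hqy)
    have h1 := hcomm f
    have h3 : cj g (sl j f) * (sl i ((siegel q w y hw hy : (κ → F) ≃ₗ[F] (κ → F)) : Module.End F (κ → F)) - 1) =
        (sl i ((siegel q w y hw hy : (κ → F) ≃ₗ[F] (κ → F)) : Module.End F (κ → F)) - 1) * cj g (sl j f) := by
      rw [mul_sub, sub_mul, h1, mul_one, one_mul]
    have h4 : om q w = (-(2 * q y))⁻¹ • ((((siegel q w y hw hy : (κ → F) ≃ₗ[F] (κ → F)) : Module.End F (κ → F)) - 1) *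
      (((siegel q w y hw hy : (κ → F) ≃ₗ[F] (κ → F)) : Module.End F (κ → F)) - 1)) := by
      rw [siegel_sub_one_sq, smul_smul, inv_mul_cancel₀ hc, one_smul]
    rw [h4, sl_smul, sl_mul, sl_sub, sl_one, mul_smul_comm, smul_mul_assoc, ← mul_assoc, h3, mul_assoc, h3, mul_assoc]
  -- all Siegel elements of slot `j` are in the second case
  have key : ∀ (w₁ y₁ : κ → F) (hw₁0 : w₁ ≠ 0) (hw₁ : q w₁ = 0) (hy₁ : polar q w₁ y₁ = 0) (hqy₁ : q y₁ ≠ 0)
      (f : Module.End F (κ → F)),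
      cj g⁻¹ (sl i f) * sl j (siegel q w₁ y₁ hw₁ hy₁ : (κ → F) ≃ₗ[F] (κ → F)) =
        sl j (siegel q w₁ y₁ hw₁ hy₁ : (κ → F) ≃ₗ[F] (κ → F)) * cj g⁻¹ (sl i f) := by
    intro w₁ y₁ hw₁0 hw₁ hy₁ hqy₁
    set d₁ := slE (ι := ι) j (siegel q w₁ y₁ hw₁ hy₁) with hd₁
    have hd₁M : d₁ ∈ M := C.siegel_mem j hw₁ hy₁
    have hgd : g * d₁ * g⁻¹ ∈ M := M.mul_mem (M.mul_mem hg hd₁M) (M.inv_mem hg)
    have hc1 : Carries (g * d₁ * g⁻¹) i i := by
      refine carries_of_comm hq C.hD hgd hw0 hw ?_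
      rw [← cj_toEnd, hd₁, slE_toEnd]
      exact hom _
    have hc2 : Carries (g⁻¹⁻¹ * d₁ * g⁻¹) i i := by rw [inv_inv]; exact hc1
    refine (tri C (M.inv_mem hg) hw₁0 hw₁ hy₁ hqy₁ hc2).resolve_left fun h3 => hcar ?_
    have h4 := carries_symm hw0 h3
    rwa [inv_inv] at h4
  intro f f'
  rw [comm_cj]
  -- the operators of slot `j` commuting with `cj g⁻¹ (sl i f')`
  set Z := cj g⁻¹ (sl i f') with hZ
  suffices hs : ∀ f : Module.End F (κ → F), Z * sl j f = sl j f * Z from (hs f).symm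
  have hom1 : ∀ w₁, w₁ ≠ 0 → q w₁ = 0 → Z * sl j (om q w₁) = sl j (om q w₁) * Z := by
    intro w₁ hw₁0 hw₁
    obtain ⟨w₁', hyp₁⟩ := LieClassical.OrthTrans.exists_hyp hq hw₁ hw₁0
    obtain ⟨y₁, hy₁, -, hqy₁⟩ := exists_nonsing_perp hq
      (by rw [Module.finrank_fintype_fun_eq_card]; exact hk3) hyp₁
    have h3 := key w₁ y₁ hw₁0 hw₁ hy₁ hqy₁ f'
    have hc : -(2 * q y₁) ≠ 0 := neg_ne_zero.2 (mul_ne_zero h2 hqy₁)
    have h4 : Z * (sl j ((siegel q w₁ y₁ hw₁ hy₁ : (κ → F) ≃ₗ[F] (κ → F)) : Module.End F (κ → F)) - 1) =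
        (sl j ((siegel q w₁ y₁ hw₁ hy₁ : (κ → F) ≃ₗ[F] (κ → F)) : Module.End F (κ → F)) - 1) * Z := by
      rw [mul_sub, sub_mul, h3, mul_one, one_mul]
    have h5 : om q w₁ = (-(2 * q y₁))⁻¹ •
        ((((siegel q w₁ y₁ hw₁ hy₁ : (κ → F) ≃ₗ[F] (κ → F)) : Module.End F (κ → F)) - 1) *
        (((siegel q w₁ y₁ hw₁ hy₁ : (κ → F) ≃ₗ[F] (κ → F)) : Module.End F (κ → F)) - 1)) := by
      rw [siegel_sub_one_sq, smul_smul, inv_mul_cancel₀ hc, one_smul]
    rw [h5, sl_smul, sl_mul, sl_sub, sl_one, mul_smul_comm, smul_mul_assoc, ← mul_assoc, h4, mul_assoc, h4, mul_assoc]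
  exact om_ind hq hk3 hyp (P := fun f => Z * sl j f = sl j f * Z)
    (fun a b ha hb => by rw [sl_add, mul_add, add_mul, ha, hb])
    (fun c a ha => by rw [sl_smul, mul_smul_comm, smul_mul_assoc, ha])
    (fun a b ha hb => by rw [sl_mul, ← mul_assoc, ha, mul_assoc, hb, mul_assoc]) hom1

end Cfsg.Agent.H900.C7
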