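import Cfsg.Agent.H900.C7.Car

/-!
# Fixed vectors of `α ⊗ β` for unipotent isometries
-/

set_option autoImplicit false
set_option linter.unusedSectionVars false
set_option linter.unusedSimpArgs false
set_option linter.unusedVariables false

namespace Cfsg.Agent.H900.C7

open QuadraticMap hiding proj
open Cfsg.Agent.LieClassical.OrthCore Cfsg.Agent.LieClassical.OrthTrans
open Cfsg.Agent.H882.Ten Cfsg.Agent.H883.C7

section one

variable {F : Type*} {W : Type*} [Field F] [AddCommGroup W] [Module F W] {QW : QuadraticForm F W}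

/-- A unipotent isometry `≠ 1` moves a space of dimension at least two. -/
theorem two_le_rank [FiniteDimensional F W] (h2 : (2 : F) ≠ 0) (hQ : Nondeg QW) {β : W ≃ₗ[F] W} (hβ : β ∈ O QW)
    (hne : β ≠ 1) (hnil : IsNilpotent ((β : Module.End F W) - 1)) :
    2 ≤ Module.finrank F (LinearMap.range ((β : Module.End F W) - 1)) := by
  by_contra hcon
  set ν : Module.End F W := (β : Module.End F W) - 1 with hν
  have hνa : ∀ v, ν v = β v - v := fun v => rfl
  obtain ⟨v₁, hv₁⟩ : ∃ v, ν v ≠ 0 := by
    by_contra h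
    push Not at h
    apply hne
    ext v
    exact sub_eq_zero.1 (h v)
  set a := ν v₁ with ha
  have hspan : ∀ v, ∃ c : F, ν v = c • a := by
    have h1 : Module.finrank F (LinearMap.range ν) = 1 := by
      have h3 : 0 < Module.finrank F (LinearMap.range ν) := by
        rw [Module.finrank_pos_iff_exists_ne_zero]
        exact ⟨⟨a, ⟨v₁, rfl⟩⟩, fun h => hv₁ (congrArg Subtype.val h)⟩
      omega
    intro v
    obtain ⟨c, hc⟩ := exists_smul_eq_of_finrank_eq_one h1 (x := ⟨a, ⟨v₁, rfl⟩⟩)
      (fun h => hv₁ (congrArg Subtype.val h)) ⟨ν v, ⟨v, rfl⟩⟩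
    exact ⟨c, (congrArg Subtype.val hc).symm⟩
  -- `ν a = 0`
  have hνaa : ν a = 0 := by
    obtain ⟨c, hc⟩ := hspan a
    obtain ⟨n, hn⟩ := hnil
    have h1 : ∀ m : ℕ, (ν ^ m) a = c ^ m • a := by
      intro m
      induction m with
      | zero => simp
      | succ m ih => rw [pow_succ', Module.End.mul_apply, ih, map_smul, hc, smul_smul, pow_succ]
    have h3 := h1 n
    rw [hn, LinearMap.zero_apply] at h3
    have h4 : c ^ n = 0 := (smul_eq_zero.1 h3.symm).resolve_right hv₁
    rw [hc, eq_zero_of_pow_eq_zero h4, zero_smul]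
  have hiso : ∀ x y, polar QW (ν x) y + polar QW x (ν y) + polar QW (ν x) (ν y) = 0 := by
    intro x y
    have h1 := polar_map hβ x y
    have e1 : β x = x + ν x := by rw [hνa]; abel
    have e2 : β y = y + ν y := by rw [hνa]; abel
    rw [e1, e2, polar_add_left, polar_add_right, polar_add_right] at h1
    linear_combination h1
  -- `a` is isotropic
  have haa : polar QW a a = 0 := by
    have h1 := hiso v₁ a
    rw [hνaa, polar_zero_right, polar_zero_right, add_zero, add_zero] at h1
    exact h1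
  have hav : polar QW a v₁ = 0 := by
    have h1 := hiso v₁ v₁
    rw [← ha, haa, polar_comm QW v₁ a, add_zero] at h1
    have h3 : 2 * polar QW a v₁ = 0 := by linear_combination h1
    exact (mul_eq_zero.1 h3).resolve_left h2
  apply hv₁
  refine hQ a fun y => ?_
  have h1 := hiso v₁ y
  obtain ⟨c, hc⟩ := hspan y
  rw [hc, ← ha, polar_smul_right, polar_smul_right, polar_comm QW v₁ a, hav, haa] at h1
  simpa using h1

/-- The fixed vectors are orthogonal to the moved space. -/
theorem polar_fix {β : W ≃ₗ[F] W} (hβ : β ∈ O QW) {y : W} (hy : β y = y) {x : W}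
    (hx : x ∈ LinearMap.range ((β : Module.End F W) - 1)) : polar QW x y = 0 := by
  obtain ⟨u, rfl⟩ := hx
  have : ((β : Module.End F W) - 1) u = β u - u := rfl
  rw [this, polar_sub_left]
  have h1 := polar_map hβ u y
  rw [hy] at h1
  rw [h1, sub_self]

theorem nakayama {ν : Module.End F W} (hν : IsNilpotent ν) {N : Submodule F W} (hN : ∀ x ∈ N, ν x ∈ N)
    (h : N ⊔ LinearMap.range ν = ⊤) : N = ⊤ := by
  have key : ∀ m : ℕ, N ⊔ LinearMap.range (ν ^ m) = ⊤ := by
    intro m
    induction m with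
    | zero => rw [pow_zero, eq_top_iff]; exact le_sup_of_le_right fun x _ => ⟨x, rfl⟩
    | succ m ih =>
      rw [eq_top_iff, ← ih]
      refine sup_le le_sup_left ?_
      rintro _ ⟨x, rfl⟩
      have hx : x ∈ N ⊔ LinearMap.range ν := by rw [h]; trivial
      obtain ⟨n, hn, _, ⟨u, rfl⟩, rfl⟩ := Submodule.mem_sup.1 hx
      rw [map_add]
      refine Submodule.add_mem _ (Submodule.mem_sup_left ?_) (Submodule.mem_sup_right ⟨u, ?_⟩)
      · have : ∀ k : ℕ, (ν ^ k) n ∈ N := by
          intro k
          induction k with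
          | zero => exact hn
          | succ k ih => rw [pow_succ', Module.End.mul_apply]; exact hN _ ih
        exact this m
      · rw [pow_succ, Module.End.mul_apply]
  obtain ⟨n, hn⟩ := hν
  have := key n
  rw [hn, LinearMap.range_zero, sup_bot_eq] at this
  exact this

end one

variable {F : Type*} {U : Type*} {W : Type*} {V : Type*} [Field F] [AddCommGroup U] [Module F U]
  [AddCommGroup W] [Module F W] [AddCommGroup V] [Module F V]
  {t : U →ₗ[F] W →ₗ[F] V} {QU : QuadraticForm F U} {QW : QuadraticForm F W} {Q : QuadraticForm F V}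

theorem cw_add' (S : TSt t QU QW Q) (x y : W) (v : V) : S.cw (x + y) v = S.cw x v + S.cw y v := by
  refine S.eq_of_polar fun u => ?_
  rw [polar_add_left, ← S.polar_cw, ← S.polar_cw, ← S.polar_cw, map_add, polar_add_right]

theorem cw_smul' (S : TSt t QU QW Q) (c : F) (x : W) (v : V) : S.cw (c • x) v = c • S.cw x v := by
  refine S.eq_of_polar fun u => ?_
  rw [polar_smul_left, ← S.polar_cw, ← S.polar_cw, map_smul, polar_smul_right]

/-- curried contraction -/
noncomputable def cwL (S : TSt t QU QW Q) : V →ₗ[F] W →ₗ[F] U :=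
  LinearMap.mk₂ F (fun v x => S.cw x v) (fun v v' x => map_add _ _ _) (fun c v x => map_smul _ _ _)
    (fun v x y => cw_add' S x y v) (fun c v x => cw_smul' S c x v)

theorem cwL_apply (S : TSt t QU QW Q) (v : V) (x : W) : cwL S v x = S.cw x v := rfl

theorem cw_tm (S : TSt t QU QW Q) {α : U ≃ₗ[F] U} {β : W ≃ₗ[F] W} (hβ : β ∈ O QW) (x : W) (v : V) :
    S.cw (β x) (tm S.ten α β v) = α (S.cw x v) := by
  have : S.cw (β x) ∘ₗ ((tm S.ten α β : V ≃ₗ[F] V) : V →ₗ[F] V) = (α : U →ₗ[F] U) ∘ₗ S.cw x := by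
    refine ext_t S.ten fun u w => ?_
    rw [LinearMap.comp_apply, LinearMap.comp_apply, LinearEquiv.coe_coe, tm_apply, S.cw_t, S.cw_t, map_smul,
      polar_map hβ]
    rfl
  exact LinearMap.congr_fun this v

theorem eq_zero_of_cw (S : TSt t QU QW Q) (hQ : Nondeg Q) {v : V} (h : ∀ x, S.cw x v = 0) : v = 0 := by
  refine hQ v fun y => ?_
  have : polarBilin Q v = 0 := by
    refine ext_t S.ten fun u w => ?_
    rw [polarBilin_apply_apply, S.polar_cw, h, polar_zero_left, LinearMap.zero_apply]
  exact LinearMap.congr_fun this y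

/-- The fixed space. -/
def fx (x₀ : V ≃ₗ[F] V) : Submodule F V := LinearMap.ker ((x₀ : Module.End F V) - 1)

theorem mem_fx {x₀ : V ≃ₗ[F] V} {v : V} : v ∈ fx x₀ ↔ x₀ v = v := by
  rw [fx, LinearMap.mem_ker]
  exact sub_eq_zero

/-- contraction of the fixed space with a complement -/
noncomputable def rhoC (S : TSt t QU QW Q) (x₀ : V ≃ₗ[F] V) (C : Submodule F W) : fx x₀ →ₗ[F] (C →ₗ[F] U) :=
  (LinearMap.lcomp F U C.subtype) ∘ₗ (cwL S) ∘ₗ (fx x₀).subtype

theorem rhoC_apply (S : TSt t QU QW Q) (x₀ : V ≃ₗ[F] V) (C : Submodule F W) (v : fx x₀) (c : C) :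
    rhoC S x₀ C v c = S.cw c v.1 := rfl

theorem rhoC_injective (S : TSt t QU QW Q) (hQ : Nondeg Q) {α : U ≃ₗ[F] U} {β : W ≃ₗ[F] W} (hβ : β ∈ O QW)
    (hnil : IsNilpotent ((β : Module.End F W) - 1)) {C : Submodule F W}
    (hC : C ⊔ LinearMap.range ((β : Module.End F W) - 1) = ⊤) :
    Function.Injective (rhoC S (tm S.ten α β) C) := by
  rw [← LinearMap.ker_eq_bot, LinearMap.ker_eq_bot']
  rintro ⟨v, hv⟩ h
  rw [mem_fx] at hv
  have h0 : ∀ c ∈ C, S.cw c v = 0 := fun c hc => LinearMap.congr_fun h ⟨c, hc⟩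
  have hst : ∀ x, S.cw x v = 0 → S.cw (β x) v = 0 := by
    intro x hx
    have := cw_tm S (α := α) hβ x v
    rw [hv, hx, map_zero] at this
    exact this
  have htop : LinearMap.ker (cwL S v) = ⊤ := by
    refine nakayama hnil ?_ ?_
    · intro x hx
      rw [LinearMap.mem_ker, cwL_apply] at hx ⊢
      have e : ((β : Module.End F W) - 1) x = β x + (-1 : F) • x := by
        rw [neg_one_smul]; exact sub_eq_add_neg _ _
      rw [e, cw_add', cw_smul', hx, hst x hx, smul_zero, add_zero]
    · rw [eq_top_iff, ← hC]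
      exact sup_le_sup_right (fun c hc => h0 c hc) _
  have h3 : v = 0 := eq_zero_of_cw S hQ fun x => by
    have : x ∈ LinearMap.ker (cwL S v) := by rw [htop]; trivial
    exact this
  exact Subtype.ext h3

/-- **`α ⊗ β` with both factors non-trivial and a large fixed space.** -/
theorem caseA [FiniteDimensional F U] [FiniteDimensional F W] [FiniteDimensional F V] [Nontrivial U]
    (S : TSt t QU QW Q) (hQ : Nondeg Q) {α : U ≃ₗ[F] U} {β : W ≃ₗ[F] W}
    (hβ : β ∈ O QW) (hnil : IsNilpotent ((β : Module.End F W) - 1)) (hα1 : α ≠ 1) (hβ1 : β ≠ 1)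
    (hfix : Module.finrank F U * (Module.finrank F W - 2) ≤ Module.finrank F (fx (tm S.ten α β))) :
    Module.finrank F (LinearMap.range ((β : Module.End F W) - 1)) = 2 ∧
      ∀ y, β y = y → y ∈ LinearMap.range ((β : Module.End F W) - 1) := by
  set D := LinearMap.range ((β : Module.End F W) - 1) with hD
  have h2D : 2 ≤ Module.finrank F D := two_le_rank S.two S.ndW hβ hβ1 hnil
  have hU : 0 < Module.finrank F U := Module.finrank_pos
  have key : ∀ C : Submodule F W, IsCompl C D → Module.finrank F D = 2 ∧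
      Function.Surjective (rhoC S (tm S.ten α β) C) := by
    intro C hC
    have hinj := rhoC_injective S hQ (α := α) hβ hnil hC.sup_eq_top
    have h1 := LinearMap.finrank_le_finrank_of_injective hinj
    rw [Module.finrank_linearMap] at h1
    have h3 := Submodule.finrank_add_eq_of_isCompl hC
    have h4 : Module.finrank F U * (Module.finrank F W - 2) ≤ Module.finrank F U * Module.finrank F C :=
      hfix.trans (h1.trans (le_of_eq (mul_comm _ _)))
    have h5 : Module.finrank F W - 2 ≤ Module.finrank F C := Nat.le_of_mul_le_mul_left h4 hU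
    have h6 : Module.finrank F D = 2 := by omega
    refine ⟨h6, ?_⟩
    have h7 : Module.finrank F C = Module.finrank F W - 2 := by omega
    have h8 : Module.finrank F (fx (tm S.ten α β)) = Module.finrank F (C →ₗ[F] U) := by
      rw [Module.finrank_linearMap]
      refine le_antisymm h1 ?_
      rw [h7, mul_comm]
      exact hfix
    exact (LinearMap.injective_iff_surjective_of_finrank_eq_finrank h8).1 hinj
  obtain ⟨C₀, hC₀⟩ := D.exists_isCompl
  refine ⟨(key C₀ hC₀.symm).1, fun y hy => ?_⟩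
  by_contra hyD
  have hdis : Disjoint (Submodule.span F {y}) D := by
    rw [Submodule.disjoint_def]
    intro x hx hxD
    obtain ⟨c, rfl⟩ := Submodule.mem_span_singleton.1 hx
    by_contra hne
    have hc : c ≠ 0 := fun h => hne (by rw [h, zero_smul])
    exact hyD ((D.smul_mem_iff hc).1 hxD)
  obtain ⟨C, hyC, hC⟩ := hdis.exists_isCompl
  have hyC' : y ∈ C := hyC (Submodule.mem_span_singleton_self y)
  have hsurj := (key C hC).2
  obtain ⟨a, ha⟩ : ∃ a, α a ≠ a := by
    by_contra h
    push Not at h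
    exact hα1 (LinearEquiv.ext h)
  have hy0 : (⟨y, hyC'⟩ : C) ≠ 0 := by
    intro h
    have : y = 0 := congrArg Subtype.val h
    rw [this] at hyD
    exact hyD D.zero_mem
  obtain ⟨φ, hφ⟩ := Module.Projective.exists_dual_ne_zero F hy0
  obtain ⟨v, hv⟩ := hsurj ((φ.smulRight ((φ ⟨y, hyC'⟩)⁻¹ • a)))
  have h1 := LinearMap.congr_fun hv ⟨y, hyC'⟩
  rw [rhoC_apply, LinearMap.smulRight_apply, smul_smul, mul_inv_cancel₀ hφ, one_smul] at h1
  have h3 := cw_tm S (α := α) hβ y v.1
  rw [hy, mem_fx.1 v.2] at h3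
  apply ha
  have h4 : S.cw y v.1 = a := h1
  rw [h4] at h3
  exact h3.symm

/-- The case distinction on the dimension. -/
theorem caseA' [FiniteDimensional F U] [FiniteDimensional F W] [FiniteDimensional F V] [Nontrivial U]
    (S : TSt t QU QW Q) (hQ : Nondeg Q) {α : U ≃ₗ[F] U} {β : W ≃ₗ[F] W}
    (hβ : β ∈ O QW) (hnil : IsNilpotent ((β : Module.End F W) - 1)) (hα1 : α ≠ 1) (hβ1 : β ≠ 1)
    (hk : 3 ≤ Module.finrank F W)
    (h4 : Module.finrank F W = 4 → ∀ w x, w ≠ 0 → QW w = 0 → QW x = 0 → polar QW w x = 0 → ∃ c : F, x = c • w)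
    (hfix : Module.finrank F U * (Module.finrank F W - 2) ≤ Module.finrank F (fx (tm S.ten α β))) :
    Module.finrank F W = 3 ∧ Module.finrank F (LinearMap.range ((β : Module.End F W) - 1)) = 2 ∧
      ∀ y, β y = y → y ∈ LinearMap.range ((β : Module.End F W) - 1) := by
  obtain ⟨hr, hle⟩ := caseA S hQ hβ hnil hα1 hβ1 hfix
  refine ⟨?_, hr, hle⟩
  have hrn := LinearMap.finrank_range_add_finrank_ker ((β : Module.End F W) - 1)
  have hker : ∀ y, y ∈ LinearMap.ker ((β : Module.End F W) - 1) ↔ β y = y := fun y => mem_fx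
  have hkle : LinearMap.ker ((β : Module.End F W) - 1) ≤ LinearMap.range ((β : Module.End F W) - 1) :=
    fun y hy => hle y ((hker y).1 hy)
  have hf := Submodule.finrank_mono hkle
  have hiso : ∀ x ∈ LinearMap.ker ((β : Module.End F W) - 1), ∀ y ∈ LinearMap.ker ((β : Module.End F W) - 1),
      polar QW x y = 0 := fun x hx y hy => polar_fix hβ ((hker y).1 hy) (hkle hx)
  by_contra hne
  have hk4 : Module.finrank F W = 4 := by omega
  have hkd : Module.finrank F (LinearMap.ker ((β : Module.End F W) - 1)) = 2 := by omega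
  have hsing : ∀ x ∈ LinearMap.ker ((β : Module.End F W) - 1), QW x = 0 := fun x hx =>
    (Q_zero_iff S.two x).2 (hiso x hx x hx)
  obtain ⟨w, hw⟩ := Module.finrank_pos_iff_exists_ne_zero.1 (by rw [hkd]; norm_num :
    0 < Module.finrank F (LinearMap.ker ((β : Module.End F W) - 1)))
  have h1 : Module.finrank F (LinearMap.ker ((β : Module.End F W) - 1)) ≤ 1 := by
    refine finrank_le_one w fun x => ?_
    obtain ⟨c, hc⟩ := h4 hk4 w.1 x.1 (fun h => hw (Subtype.ext h)) (hsing _ w.2) (hsing _ x.2) (hiso _ w.2 _ x.2)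
    exact ⟨c, Subtype.ext hc.symm⟩
  omega

end Cfsg.Agent.H900.C7
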