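import Cfsg.Agent.H883.C7.Irr

/-!
# Linear algebra in one slot: rank one operators, skew operators
-/

set_option autoImplicit false
set_option linter.unusedSectionVars false
set_option linter.unusedSimpArgs false

namespace Cfsg.Agent.H900.C7

open QuadraticMap hiding proj
open Cfsg.Agent.LieClassical.OrthCore Cfsg.Agent.LieClassical.OrthTrans
open Cfsg.Agent.H882.Ten Cfsg.Agent.H883.C7

section one

variable {F : Type*} [Field F] {V : Type*} [AddCommGroup V] [Module F V] {q : QuadraticForm F V}

/-- The rank one operator `v ↦ B(a, v) b`. -/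
def rk (q : QuadraticForm F V) (a b : V) : Module.End F V := (polarBilin q a).smulRight b

theorem rk_apply (a b v : V) : rk q a b v = polar q a v • b := rfl

theorem nn_eq_rk (a b : V) : nn q a b = rk q a b - rk q b a := rfl

theorem om_eq_rk (a : V) : om q a = rk q a a := rfl

theorem rk_add_left (a a' b : V) : rk q (a + a') b = rk q a b + rk q a' b := by
  ext v; simp only [rk_apply, LinearMap.add_apply, polar_add_left, add_smul]

theorem rk_add_right (a b b' : V) : rk q a (b + b') = rk q a b + rk q a b' := by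
  ext v; simp only [rk_apply, LinearMap.add_apply, smul_add]

theorem rk_smul_left (c : F) (a b : V) : rk q (c • a) b = c • rk q a b := by
  ext v; simp only [rk_apply, LinearMap.smul_apply, polar_smul_left, smul_smul, smul_eq_mul]

theorem rk_smul_right (c : F) (a b : V) : rk q a (c • b) = c • rk q a b := by
  ext v; simp only [rk_apply, LinearMap.smul_apply, smul_smul]; rw [mul_comm]

theorem mul_rk (f : Module.End F V) (a b : V) : f * rk q a b = rk q a (f b) := by
  ext v; simp only [Module.End.mul_apply, rk_apply, map_smul]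

theorem rk_mul_rk (a b a' b' : V) : rk q a b * rk q a' b' = polar q a b' • rk q a' b := by
  ext v
  simp only [Module.End.mul_apply, rk_apply, LinearMap.smul_apply, polar_smul_right, smul_smul, smul_eq_mul]
  rw [mul_comm]

theorem nn_add_left (a a' b : V) : nn q (a + a') b = nn q a b + nn q a' b := by
  rw [nn_eq_rk, nn_eq_rk, nn_eq_rk, rk_add_left, rk_add_right]; abel

theorem nn_add_right (a b b' : V) : nn q a (b + b') = nn q a b + nn q a b' := by
  rw [nn_eq_rk, nn_eq_rk, nn_eq_rk, rk_add_left, rk_add_right]; abel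

theorem nn_smul_left (c : F) (a b : V) : nn q (c • a) b = c • nn q a b := by
  rw [nn_eq_rk, nn_eq_rk, rk_smul_left, rk_smul_right, smul_sub]

theorem nn_smul_right (c : F) (a b : V) : nn q a (c • b) = c • nn q a b := by
  rw [nn_eq_rk, nn_eq_rk, rk_smul_left, rk_smul_right, smul_sub]

theorem nn_swap (a b : V) : nn q a b = - nn q b a := by
  rw [nn_eq_rk, nn_eq_rk]; abel

theorem nn_self (a : V) : nn q a a = 0 := by rw [nn_eq_rk, sub_self]

theorem nn_neg_right (a b : V) : nn q a (-b) = - nn q a b := by
  rw [← neg_one_smul F, nn_smul_right, neg_one_smul]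

theorem nn_sub_right (a b b' : V) : nn q a (b - b') = nn q a b - nn q a b' := by
  rw [sub_eq_add_neg, nn_add_right, nn_neg_right, sub_eq_add_neg]

theorem nn_sub_left (a a' b : V) : nn q (a - a') b = nn q a b - nn q a' b := by
  rw [nn_swap, nn_sub_right, nn_swap b a, nn_swap b a']; abel

/-- skew operators -/
def Skew (q : QuadraticForm F V) (x : Module.End F V) : Prop := ∀ u v, polar q (x u) v = - polar q u (x v)

theorem skew_nn (a b : V) : Skew q (nn q a b) := by
  intro u v
  simp only [nn_apply, polar_sub_left, polar_sub_right, polar_smul_left, polar_smul_right, smul_eq_mul]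
  rw [polar_comm q u a, polar_comm q u b]
  ring

theorem Skew.zero : Skew q (0 : Module.End F V) := by
  intro u v
  simp

theorem Skew.add {x y : Module.End F V} (hx : Skew q x) (hy : Skew q y) : Skew q (x + y) := by
  intro u v
  rw [LinearMap.add_apply, LinearMap.add_apply, polar_add_left, polar_add_right, hx, hy]
  ring

theorem Skew.smul (c : F) {x : Module.End F V} (hx : Skew q x) : Skew q (c • x) := by
  intro u v
  rw [LinearMap.smul_apply, LinearMap.smul_apply, polar_smul_left, polar_smul_right, hx, smul_eq_mul, smul_eq_mul]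
  ring

theorem Skew.bracket {x y : Module.End F V} (hx : Skew q x) (hy : Skew q y) : Skew q (x * y - y * x) := by
  intro u v
  simp only [LinearMap.sub_apply, Module.End.mul_apply, polar_sub_left, polar_sub_right]
  rw [hx, hy, hy, hx]
  ring

/-- conjugation by an isometry -/
theorem Skew.cj {x : Module.End F V} (hx : Skew q x) {g : V ≃ₗ[F] V} (hg : g ∈ O q) : Skew q (cj g x) := by
  intro u v
  rw [cj_apply, cj_apply]
  have h1 : ∀ u, g (g⁻¹ u) = u := fun u => LinearEquiv.apply_symm_apply g u
  conv_lhs => rw [← h1 v]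
  conv_rhs => rw [← h1 u]
  rw [polar_map hg, polar_map hg, hx]

theorem nn_bracket (x : Module.End F V) (hx : Skew q x) (a b : V) :
    x * nn q a b - nn q a b * x = nn q (x a) b + nn q a (x b) := by
  ext v
  simp only [LinearMap.sub_apply, LinearMap.add_apply, Module.End.mul_apply, nn_apply, map_sub, map_smul]
  rw [hx, hx]
  have h1 : ∀ c d, polar q c (x d) = - polar q (x c) d := fun c d => by rw [hx, neg_neg]
  rw [h1 a, h1 b]
  module

/-- `om` for singular vectors generates everything. -/
theorem rk_of_om (hd : 3 ≤ Module.finrank F V) (hQ : Nondeg q) {x y : V} (hyp : Hyp q x y) {P : Module.End F V → Prop}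
    (hadd : ∀ a b, P a → P b → P (a + b)) (hsmul : ∀ (c : F) a, P a → P (c • a))
    (hmul : ∀ a b, P a → P b → P (a * b)) (hom : ∀ w, w ≠ 0 → q w = 0 → P (om q w)) (a b : V) : P (rk q a b) := by
  have h0 : P 0 := by
    have := hsmul 0 _ (hom x hyp.left_ne hyp.left)
    rwa [zero_smul] at this
  have hom' : ∀ w, q w = 0 → P (om q w) := by
    intro w hw
    by_cases h : w = 0
    · have : om q w = 0 := by
        ext v
        rw [om_apply, h, smul_zero, LinearMap.zero_apply]
      rw [this]; exact h0
    · exact hom w h hw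
  have h1 : ∀ w w', q w = 0 → q w' = 0 → polar q w w' ≠ 0 → P (rk q w' w) := by
    intro w w' hw hw' hne
    have h2 := hsmul (polar q w w')⁻¹ _ (hmul _ _ (hom' w hw) (hom' w' hw'))
    rw [om_eq_rk, om_eq_rk, rk_mul_rk, smul_smul, inv_mul_cancel₀ hne, one_smul] at h2
    exact h2
  have h2 : ∀ w, w ≠ 0 → q w = 0 → ∀ v, P (rk q v w) := by
    intro w hw0 hw v
    obtain ⟨w', hyp'⟩ := LieClassical.OrthTrans.exists_hyp hQ hw hw0
    refine op_ind hyp' (P := fun v => P (rk q v w)) (fun a c ha hc => ?_) (fun c => ?_) (fun a ha hne => ?_) v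
    · rw [rk_add_left]; exact hadd _ _ ha hc
    · rw [rk_smul_left]; exact hsmul _ _ (hom' w hw)
    · exact h1 w a hw ha hne
  refine op_ind hyp (P := fun b => P (rk q a b)) (fun b c hb hc => ?_) (fun c => ?_) (fun b hb hne => ?_) b
  · rw [rk_add_right]; exact hadd _ _ hb hc
  · rw [rk_smul_right]; exact hsmul _ _ (h2 x hyp.left_ne hyp.left a)
  · refine h2 b ?_ hb a
    rintro rfl
    exact hne (polar_zero_right q x)

/-- A skew operator from singular vectors and nonsingular orthogonal vectors. -/
theorem nn_of_sing (h2 : (2 : F) ≠ 0) (hd : 3 ≤ Module.finrank F V) (hQ : Nondeg q) {x y : V} (hyp : Hyp q x y)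
    {P : Module.End F V → Prop}
    (hadd : ∀ a b, P a → P b → P (a + b)) (hsmul : ∀ (c : F) a, P a → P (c • a))
    (hP : ∀ w y, w ≠ 0 → q w = 0 → polar q w y = 0 → q y ≠ 0 → P (nn q w y)) (a b : V) : P (nn q a b) := by
  have hsub : ∀ a b, P a → P b → P (a - b) := by
    intro a b ha hb
    rw [sub_eq_add_neg, ← neg_one_smul F b]
    exact hadd _ _ ha (hsmul _ _ hb)
  -- step 1
  have s1 : ∀ w y, w ≠ 0 → q w = 0 → polar q w y = 0 → P (nn q w y) := by
    intro w y hw0 hw hy
    by_cases hqy : q y = 0
    swap
    · exact hP w y hw0 hw hy hqy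
    obtain ⟨w', hyp'⟩ := LieClassical.OrthTrans.exists_hyp hQ hw hw0
    obtain ⟨z, hz1, hz2, hz3⟩ := exists_nonsing_perp hQ hd hyp'
    by_cases h : q (y + z) = 0
    · have h3 : q (y - z) ≠ 0 := by
        have e1 : q (y + z) = q z + polar q y z := by rw [Q_add, hqy, zero_add]
        have e2 : q (y - z) = q z - polar q y z := by
          rw [sub_eq_add_neg, Q_add, QuadraticMap.map_neg, hqy, polar_neg_right]
          ring
        rw [e2]
        rw [e1] at h
        intro h4
        have : 2 * q z = 0 := by linear_combination h + h4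
        exact mul_ne_zero h2 hz3 this
      have e : nn q w y = nn q w (y - z) + nn q w z := by rw [← nn_add_right, sub_add_cancel]
      rw [e]
      exact hadd _ _ (hP w _ hw0 hw (by rw [polar_sub_right, hy, hz1, sub_zero]) h3) (hP w z hw0 hw hz1 hz3)
    · have e : nn q w y = nn q w (y + z) - nn q w z := by rw [← nn_sub_right, add_sub_cancel_right]
      rw [e]
      exact hsub _ _ (hP w _ hw0 hw (by rw [polar_add_right, hy, hz1, add_zero]) h) (hP w z hw0 hw hz1 hz3)
  -- step 2
  have s2 : ∀ w w', Hyp q w w' → P (nn q w w') := by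
    intro w w' hyp'
    obtain ⟨z, hz1, hz2, hz3⟩ := exists_nonsing_perp hQ hd hyp'
    have hs := sing_vec hyp' hz1 hz2
    have hu0 : w + z - q z • w' ≠ 0 := by
      intro h
      have := congrArg (polar q w') h
      rw [polar_sub_right, polar_add_right, polar_smul_right, hyp'.pair', hz2, hyp'.polar_right, polar_zero_right] at this
      simp at this
    have h3 := s1 (w + z - q z • w') (z - (2 * q z) • w') hu0 hs (by
      simp only [polar_sub_left, polar_add_left, polar_smul_left, polar_sub_right, polar_smul_right, hz1, hz2,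
        hyp'.pair, polar_self', hyp'.polar_right, smul_eq_mul, polar_comm q z w', hyp'.right]
      ring)
    have e : nn q (w + z - q z • w') (z - (2 * q z) • w') =
        nn q w z - (2 * q z) • nn q w w' + q z • nn q w' z := by
      rw [nn_sub_right, nn_sub_left, nn_sub_left, nn_add_left, nn_add_left, nn_smul_right, nn_smul_right,
        nn_smul_right, nn_smul_left, nn_smul_left, nn_self, nn_self, nn_swap z w']
      module
    rw [e] at h3
    have h4 : P ((2 * q z) • nn q w w') := by
      have e2 : (2 * q z) • nn q w w' = nn q w z + q z • nn q w' z -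
          (nn q w z - (2 * q z) • nn q w w' + q z • nn q w' z) := by abel
      rw [e2]
      exact hsub _ _ (hadd _ _ (s1 w z hyp'.left_ne hyp'.left hz1)
        (hsmul _ _ (s1 w' z hyp'.right_ne hyp'.right hz2))) h3
    have h5 := hsmul (2 * q z)⁻¹ _ h4
    rwa [smul_smul, inv_mul_cancel₀ (mul_ne_zero h2 hz3), one_smul] at h5
  -- step 3
  have s3 : ∀ w b, w ≠ 0 → q w = 0 → P (nn q w b) := by
    intro w b hw0 hw
    obtain ⟨w', hyp'⟩ := LieClassical.OrthTrans.exists_hyp hQ hw hw0
    have e : nn q w b = polar q w b • nn q w w' + nn q w (b - polar q w b • w') := by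
      rw [← nn_smul_right, ← nn_add_right, add_sub_cancel]
    rw [e]
    exact hadd _ _ (hsmul _ _ (s2 w w' hyp')) (s1 w _ hw0 hw (by
      rw [polar_sub_right, polar_smul_right, hyp'.pair, smul_eq_mul, mul_one, sub_self]))
  refine op_ind hyp (P := fun a => P (nn q a b)) (fun a c ha hc => ?_) (fun c => ?_) (fun a ha hne => ?_) a
  · rw [nn_add_left]; exact hadd _ _ ha hc
  · rw [nn_smul_left]; exact hsmul _ _ (s3 x b hyp.left_ne hyp.left)
  · refine s3 a b ?_ ha
    rintro rfl
    exact hne (polar_zero_right q x)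

end one

section coord

variable {F : Type*} [Field F] {κ : Type*} [Fintype κ] [DecidableEq κ] {q : QuadraticForm F (κ → F)}

theorem dual_expand {d : κ → (κ → F)} (hd : ∀ b (x : κ → F), polar q x (d b) = x b) (v : κ → F) :
    ∑ b, polar q v (d b) • (Pi.single b (1 : F) : κ → F) = v := by
  simp only [hd]
  funext a
  rw [Finset.sum_apply]
  simp only [Pi.smul_apply, smul_eq_mul, Pi.single_apply, mul_ite, mul_one, mul_zero]
  rw [Finset.sum_ite_eq Finset.univ a]
  simp

theorem dual_expand' (hq : Nondeg q) {d : κ → (κ → F)} (hd : ∀ b (x : κ → F), polar q x (d b) = x b) (v : κ → F) :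
    ∑ b, polar q (Pi.single b (1 : F) : κ → F) v • d b = v := by
  rw [← sub_eq_zero]
  refine hq _ fun y => ?_
  rw [polar_sub_left]
  have h1 : polar q (∑ b, polar q (Pi.single b (1 : F) : κ → F) v • d b) y =
      ∑ b, polar q (Pi.single b (1 : F) : κ → F) v * polar q (d b) y := by
    have : polar q (∑ b, polar q (Pi.single b (1 : F) : κ → F) v • d b) y =
        (polarBilin q).flip y (∑ b, polar q (Pi.single b (1 : F) : κ → F) v • d b) := rfl
    rw [this, map_sum]
    refine Finset.sum_congr rfl fun b _ => ?_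
    rw [map_smul]; rfl
  have h2 : polar q v y = ∑ b, polar q (Pi.single b (1 : F) : κ → F) v * polar q (d b) y := by
    conv_lhs => rw [← dual_expand hd y]
    have : polar q v (∑ b, polar q y (d b) • (Pi.single b (1 : F) : κ → F)) =
        polarBilin q v (∑ b, polar q y (d b) • (Pi.single b (1 : F) : κ → F)) := rfl
    rw [this, map_sum]
    refine Finset.sum_congr rfl fun b _ => ?_
    rw [map_smul, smul_eq_mul, polarBilin_apply_apply, polar_comm q v, polar_comm q y, mul_comm]
  rw [h1, h2, sub_self]

/-- The rank one operators span. -/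
theorem rk_ind (hq : Nondeg q) {P : Module.End F (κ → F) → Prop} (hadd : ∀ a b, P a → P b → P (a + b))
    (h0 : P 0) (hrk : ∀ a b, P (rk q a b)) (f : Module.End F (κ → F)) : P f := by
  obtain ⟨d, hd⟩ := exists_dual hq
  have e : f = ∑ b, rk q (d b) (f (Pi.single b 1)) := by
    refine LinearMap.ext fun v => ?_
    rw [LinearMap.sum_apply]
    conv_lhs => rw [← dual_expand hd v]
    rw [map_sum]
    refine Finset.sum_congr rfl fun b _ => ?_
    rw [map_smul, rk_apply, polar_comm q v]
  rw [e]
  exact Finset.sum_induction _ P hadd h0 fun b _ => hrk _ _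

/-- The operators `v ∧ v'` span the skew operators. -/
theorem skew_ind (h2 : (2 : F) ≠ 0) (hq : Nondeg q) {P : Module.End F (κ → F) → Prop}
    (hadd : ∀ a b, P a → P b → P (a + b)) (hsmul : ∀ (c : F) a, P a → P (c • a))
    (hnn : ∀ a b, P (nn q a b)) {x : Module.End F (κ → F)} (hx : Skew q x) : P x := by
  obtain ⟨d, hd⟩ := exists_dual hq
  have h0 : P 0 := by
    have := hsmul 0 _ (hnn 0 0)
    rwa [zero_smul] at this
  have e : (2 : F) • x = ∑ b, nn q (d b) (x (Pi.single b 1)) := by
    refine LinearMap.ext fun v => ?_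
    rw [LinearMap.sum_apply, LinearMap.smul_apply, two_smul]
    simp only [nn_apply]
    rw [Finset.sum_sub_distrib]
    have e1 : ∑ b, polar q (d b) v • x (Pi.single b 1) = x v := by
      conv_rhs => rw [← dual_expand hd v]
      rw [map_sum]
      refine Finset.sum_congr rfl fun b _ => ?_
      rw [map_smul, polar_comm q v]
    have e2 : ∑ b, polar q (x (Pi.single b 1)) v • d b = - x v := by
      conv_rhs => rw [← dual_expand' hq hd (x v), ← Finset.sum_neg_distrib]
      refine Finset.sum_congr rfl fun b _ => ?_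
      rw [hx, neg_smul]
    rw [e1, e2, sub_neg_eq_add]
  have e' : x = (2 : F)⁻¹ • ∑ b, nn q (d b) (x (Pi.single b 1)) := by
    rw [← e, smul_smul, inv_mul_cancel₀ h2, one_smul]
  rw [e']
  exact hsmul _ _ (Finset.sum_induction _ P hadd h0 fun b _ => hnn _ _)

/-- Everything from `om`. -/
theorem om_ind (hq : Nondeg q) (hd : 3 ≤ Fintype.card κ) {x y : κ → F} (hyp : Hyp q x y)
    {P : Module.End F (κ → F) → Prop}
    (hadd : ∀ a b, P a → P b → P (a + b)) (hsmul : ∀ (c : F) a, P a → P (c • a))
    (hmul : ∀ a b, P a → P b → P (a * b)) (hom : ∀ w, w ≠ 0 → q w = 0 → P (om q w)) (f : Module.End F (κ → F)) :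
    P f := by
  have h1 := rk_of_om (by rw [Module.finrank_fintype_fun_eq_card]; exact hd) hq hyp hadd hsmul hmul hom
  refine rk_ind hq hadd ?_ h1 f
  have := hsmul 0 _ (h1 0 0)
  rwa [zero_smul] at this

/-- The skew operators from `w ∧ y`. -/
theorem skew_ind' (h2 : (2 : F) ≠ 0) (hq : Nondeg q) (hd : 3 ≤ Fintype.card κ) {x y : κ → F} (hyp : Hyp q x y)
    {P : Module.End F (κ → F) → Prop}
    (hadd : ∀ a b, P a → P b → P (a + b)) (hsmul : ∀ (c : F) a, P a → P (c • a))
    (hP : ∀ w y, w ≠ 0 → q w = 0 → polar q w y = 0 → q y ≠ 0 → P (nn q w y)) {f : Module.End F (κ → F)}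
    (hf : Skew q f) : P f :=
  skew_ind h2 hq hadd hsmul (nn_of_sing h2 (by rw [Module.finrank_fintype_fun_eq_card]; exact hd) hq hyp
    hadd hsmul hP) hf

end coord

end Cfsg.Agent.H900.C7
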