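import Cfsg.Agent.H900.C7.Ptr

/-!
# The sum over the moved conjugates
-/

set_option autoImplicit false
set_option linter.unusedSectionVars false
set_option linter.unusedSimpArgs false
set_option linter.unusedVariables false

namespace Cfsg.Agent.H900.C7

open QuadraticMap hiding proj
open Cfsg.Agent.LieClassical.OrthCore Cfsg.Agent.LieClassical.OrthTrans
open Cfsg.Agent.H882.Ten Cfsg.Agent.H883.C7 Cfsg.Agent.LieClassical.OrthFinite

/-! ### power sums -/

section sums

variable {F : Type*} [Field F] {X : Type*} [AddCommGroup X] [Module F X]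

theorem sum_poly [Fintype F] (h0 : ∑ c : F, c ^ 0 = 0) (h1 : ∑ c : F, c ^ 1 = 0) (h3 : ∑ c : F, c ^ 3 = 0)
    (A0 A1 A2 A3 A4 : X) :
    ∑ c : F, (A0 + c • A1 + (c * c) • A2 + (c * c * c) • A3 + (c * c * (c * c)) • A4) =
      (∑ c : F, c ^ 2) • A2 + (∑ c : F, c ^ 4) • A4 := by
  have e0 : ∑ c : F, A0 = (0 : X) := by
    have : ∑ c : F, A0 = (∑ c : F, c ^ 0) • A0 := by
      rw [Finset.sum_smul]
      exact Finset.sum_congr rfl fun c _ => by rw [pow_zero, one_smul]
    rw [this, h0, zero_smul]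
  have e1 : ∑ c : F, c • A1 = 0 := by
    have : ∑ c : F, c • A1 = (∑ c : F, c ^ 1) • A1 := by
      rw [Finset.sum_smul]
      exact Finset.sum_congr rfl fun c _ => by rw [pow_one]
    rw [this, h1, zero_smul]
  have e2 : ∑ c : F, (c * c) • A2 = (∑ c : F, c ^ 2) • A2 := by
    rw [Finset.sum_smul]
    exact Finset.sum_congr rfl fun c _ => by rw [pow_two]
  have e3 : ∑ c : F, (c * c * c) • A3 = 0 := by
    have : ∑ c : F, (c * c * c) • A3 = (∑ c : F, c ^ 3) • A3 := by
      rw [Finset.sum_smul]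
      exact Finset.sum_congr rfl fun c _ => by rw [pow_succ, pow_two]
    rw [this, h3, zero_smul]
  have e4 : ∑ c : F, (c * c * (c * c)) • A4 = (∑ c : F, c ^ 4) • A4 := by
    rw [Finset.sum_smul]
    exact Finset.sum_congr rfl fun c _ => by congr 1; ring
  rw [Finset.sum_add_distrib, Finset.sum_add_distrib, Finset.sum_add_distrib, Finset.sum_add_distrib, e0, e1, e2, e3,
    e4]
  abel

theorem sums_of_five [Fintype F] (h : 5 ≤ Fintype.card F) :
    ∑ c : F, c ^ 0 = 0 ∧ ∑ c : F, c ^ 1 = 0 ∧ ∑ c : F, c ^ 2 = 0 ∧ ∑ c : F, c ^ 3 = 0 :=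
  ⟨FiniteField.sum_pow_lt_card_sub_one (K := F) 0 (by omega), FiniteField.sum_pow_lt_card_sub_one (K := F) 1 (by omega),
    FiniteField.sum_pow_lt_card_sub_one (K := F) 2 (by omega), FiniteField.sum_pow_lt_card_sub_one (K := F) 3 (by omega)⟩

theorem sums_of_three [Fintype F] (h : Fintype.card F = 3) :
    ∑ c : F, c ^ 0 = 0 ∧ ∑ c : F, c ^ 1 = 0 ∧ ∑ c : F, c ^ 3 = 0 := by
  have h1 : ∑ c : F, c ^ 1 = 0 := FiniteField.sum_pow_lt_card_sub_one (K := F) 1 (by omega)
  refine ⟨FiniteField.sum_pow_lt_card_sub_one (K := F) 0 (by omega), h1, ?_⟩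
  rw [← h1]
  refine Finset.sum_congr rfl fun c _ => ?_
  have := FiniteField.pow_card c
  rw [h] at this
  rw [this, pow_one]

theorem three_cases [Fintype F] (h : Fintype.card F = 3) {e : F} (he : e ≠ 0) (c : F) : c = 0 ∨ c = e ∨ c = -e := by
  have key : ∀ c : F, c ≠ 0 → c * c = 1 := by
    intro c hc
    have := FiniteField.pow_card c
    rw [h] at this
    have h1 : c * (c * c - 1) = 0 := by linear_combination this
    exact sub_eq_zero.1 ((mul_eq_zero.1 h1).resolve_left hc)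
  by_cases hc : c = 0
  · exact Or.inl hc
  right
  have h1 := key c hc
  have h2 := key e he
  have h3 : (c - e) * (c + e) = 0 := by linear_combination h1 - h2
  rcases mul_eq_zero.1 h3 with h4 | h4
  · exact Or.inl (sub_eq_zero.1 h4)
  · exact Or.inr (eq_neg_of_add_eq_zero_left h4)

end sums

variable {F : Type*} [Field F] {κ : Type*} [Fintype κ] [DecidableEq κ] {ι : Type*} [Fintype ι] [DecidableEq ι]
  {q : QuadraticForm F (κ → F)} {M : Subgroup (((ι → κ) → F) ≃ₗ[F] ((ι → κ) → F))}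

theorem siegel_inv_eq {w y : κ → F} (hw : q w = 0) (hy : polar q w y = 0) (hy' : polar q w (-y) = 0) :
    (siegel q w y hw hy)⁻¹ = siegel q w (-y) hw hy' := siegel_inv hw hy hy'

theorem cj_siegel (i : ι) {w y : κ → F} (hw : q w = 0) (hy : polar q w y = 0) (Y : Module.End F ((ι → κ) → F)) :
    cj (slE i (siegel q w y hw hy)) Y = Y + (sl i (nn q w y) * Y - Y * sl i (nn q w y)) -
      q y • (sl i (om q w) * Y + Y * sl i (om q w)) - sl i (nn q w y) * Y * sl i (nn q w y) +
      q y • (sl i (om q w) * Y * sl i (nn q w y) - sl i (nn q w y) * Y * sl i (om q w)) +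
      (q y * q y) • (sl i (om q w) * Y * sl i (om q w)) := by
  have hy' : polar q w (-y) = 0 := by rw [polar_neg_right, hy, neg_zero]
  rw [cj_eq_mul, ← map_inv, siegel_inv_eq hw hy hy', slE_toEnd, slE_toEnd, siegel_eq, siegel_eq, sl_sub, sl_add, sl_one,
    sl_smul, sl_sub, sl_add, sl_one, sl_smul, QuadraticMap.map_neg]
  have e1 : sl (ι := ι) i (nn q w (-y)) = (-1 : F) • sl i (nn q w y) := by
    rw [← sl_smul, ← nn_smul_right, neg_one_smul]
  rw [e1]
  simp only [add_mul, mul_add, sub_mul, mul_sub, one_mul, mul_one, smul_mul_assoc, mul_smul_comm, smul_smul, mul_assoc]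
  module

theorem cj_siegel_comm (i : ι) {w y : κ → F} (hw : q w = 0) (hy : polar q w y = 0) {z : Module.End F ((ι → κ) → F)}
    (h1 : z * sl i (nn q w y) = sl i (nn q w y) * z) (h2 : z * sl i (om q w) = sl i (om q w) * z) :
    cj (slE i (siegel q w y hw hy)) z = z := by
  rw [cj_eq_iff, slE_toEnd, siegel_eq, sl_sub, sl_add, sl_one, sl_smul, mul_sub, mul_add, sub_mul, add_mul, h1,
    mul_one, one_mul, mul_smul_comm, smul_mul_assoc, h2]

section ctx

variable {x : κ → F} {hx : x ≠ 0}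

theorem fixC_smul {i j : ι} (s : M) {t : (κ → F) ≃ₗ[F] (κ → F)} (hs : s.1 = slE i t) {Q : M ⧸ NN hx M j}
    (h : FixC hx M i j Q) : FixC hx M i j (s • Q) := by
  obtain ⟨g, rfl, hg⟩ := h
  refine ⟨s * g, rfl, ?_⟩
  rcases hg with hg | hg
  · left
    have : (s * g : M).1 = s.1 * g.1 := rfl
    rw [this]
    exact carries_comp hg (by rw [hs]; exact carries_slE i t)
  · right
    intro f
    have e1 : (s * g : M).1 = s.1 * g.1 := rfl
    have e2 : cj (s * g : M).1 (sl j f) = cj g.1 (sl j f) := by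
      rw [e1, ← cj_cj, cj_eq_iff, hs, slE_toEnd]
      exact (hg f _).symm
    rw [e2]
    exact hg f

theorem fixC_of_fixed [Finite F] (C : Ctx q M) {i j : ι} {w y : κ → F} (hw0 : w ≠ 0) (hw : q w = 0)
    (hy : polar q w y = 0) (hqy : q y ≠ 0) {s : M} (hs : s.1 = slE i (siegel q w y hw hy)) {Q : M ⧸ NN hx M j}
    (h : s • Q = Q) : FixC hx M i j Q := by
  obtain ⟨a, rfl⟩ := QuotientGroup.mk_surjective Q
  have e1 : s • ((a : M) : M ⧸ NN hx M j) = ((s * a : M) : M ⧸ NN hx M j) := rfl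
  rw [e1, eq_comm, QuotientGroup.eq, mem_NN] at h
  have e2 : (a⁻¹ * (s * a) : M).1 = a.1⁻¹ * slE i (siegel q w y hw hy) * a.1 := by
    rw [← hs, mul_assoc]; rfl
  rw [e2] at h
  refine ⟨a, rfl, ?_⟩
  rcases fix C a.2 hw0 hw hy hqy h with h1 | h1
  · exact Or.inl h1
  · exact Or.inr fun f f' => h1 f f'

open scoped Classical in
/-- The moved cosets. -/
noncomputable def SM (hx : x ≠ 0) (M : Subgroup (((ι → κ) → F) ≃ₗ[F] ((ι → κ) → F))) (i j : ι)
    [Fintype (M ⧸ NN hx M j)] : Finset (M ⧸ NN hx M j) :=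
  Finset.univ.filter fun Q => ¬ FixC hx M i j Q

open scoped Classical in
theorem mem_SM {i j : ι} [Fintype (M ⧸ NN hx M j)] (Q : M ⧸ NN hx M j) : Q ∈ SM hx M i j ↔ ¬ FixC hx M i j Q := by
  rw [SM, Finset.mem_filter]
  simp

theorem smul_mem_SM {i j : ι} [Fintype (M ⧸ NN hx M j)] (s : M) {t : (κ → F) ≃ₗ[F] (κ → F)} (hs : s.1 = slE i t)
    {Q : M ⧸ NN hx M j} (h : Q ∈ SM hx M i j) : s • Q ∈ SM hx M i j := by
  rw [mem_SM] at h ⊢
  intro h1
  apply h
  have h3 := fixC_smul s⁻¹ (t := t⁻¹) (by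
    have : (s⁻¹ : M).1 = s.1⁻¹ := rfl
    rw [this, hs, map_inv]) h1
  rwa [inv_smul_smul] at h3

/-- The sum over the moved cosets. -/
noncomputable def EM (hx : x ≠ 0) (M : Subgroup (((ι → κ) → F) ≃ₗ[F] ((ι → κ) → F))) (i j : ι)
    [Fintype (M ⧸ NN hx M j)] (z : Module.End F ((ι → κ) → F)) : Module.End F ((ι → κ) → F) :=
  ∑ Q ∈ SM hx M i j, phi hx M j z Q

theorem EM_add {i j : ι} [Fintype (M ⧸ NN hx M j)] (z z' : Module.End F ((ι → κ) → F)) :
    EM hx M i j (z + z') = EM hx M i j z + EM hx M i j z' := by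
  simp only [EM, phi_add, Finset.sum_add_distrib]

theorem EM_smul {i j : ι} [Fintype (M ⧸ NN hx M j)] (c : F) (z : Module.End F ((ι → κ) → F)) :
    EM hx M i j (c • z) = c • EM hx M i j z := by
  simp only [EM, phi_smul, Finset.smul_sum]

theorem EM_cj {i j : ι} [Fintype (M ⧸ NN hx M j)] (s : M) {t : (κ → F) ≃ₗ[F] (κ → F)} (hs : s.1 = slE i t)
    (z : Module.End F ((ι → κ) → F)) : EM hx M i j (cj s.1 z) = cj s.1 (EM hx M i j z) := by
  have e1 : cj s.1 (EM hx M i j z) = ∑ Q ∈ SM hx M i j, cj s.1 (phi hx M j z Q) := by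
    rw [EM, ← cjL_apply, map_sum]; rfl
  rw [e1, EM]
  symm
  refine Finset.sum_bij (fun Q _ => s • Q) (fun Q hQ => smul_mem_SM s hs hQ)
    (fun Q _ Q' _ h => MulAction.injective s h) (fun Q hQ => ⟨s⁻¹ • Q, ?_, smul_inv_smul s Q⟩)
    (fun Q _ => (phi_act j z s Q).symm)
  exact smul_mem_SM s⁻¹ (t := t⁻¹) (by
    have : (s⁻¹ : M).1 = s.1⁻¹ := rfl
    rw [this, hs, map_inv]) hQ

/-- The moved sum is a trace. -/
theorem exists_trace [Finite F] (C : Ctx q M) {i j : ι} [Fintype (M ⧸ NN hx M j)] {w : κ → F} (hw0 : w ≠ 0)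
    (hw : q w = 0) {A : Type*} [AddCommGroup A] [Fintype A] (y : A →+ (κ → F)) (hy : ∀ a, polar q w (y a) = 0)
    (hqy : ∀ a, q (y a) = 0 → a = 0) {z : Module.End F ((ι → κ) → F)}
    (hz : ∀ a, cj (slE i (siegel q w (y a) hw (hy a))) z = z) :
    ∃ Y : Module.End F ((ι → κ) → F), EM hx M i j z = ∑ a, cj (slE i (siegel q w (y a) hw (hy a))) Y := by
  classical
  let s : A → M := fun a => ⟨slE i (siegel q w (y a) hw (hy a)), C.siegel_mem i hw (hy a)⟩
  have hs0 : s 0 = 1 := by
    apply Subtype.ext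
    show slE i (siegel q w (y 0) hw (hy 0)) = 1
    have : siegel q w (y 0) hw (hy 0) = 1 := by
      ext v : 1
      rw [siegel_apply, map_zero, polar_zero_left, QuadraticMap.map_zero]
      simp
    rw [this, map_one]
  have hsadd : ∀ a b, s (a + b) = s a * s b := by
    intro a b
    apply Subtype.ext
    show slE i (siegel q w (y (a + b)) hw (hy (a + b))) =
      slE i (siegel q w (y a) hw (hy a)) * slE i (siegel q w (y b) hw (hy b))
    rw [← map_mul, siegel_mul hw (hy a) (hy b) (by rw [polar_add_right, hy, hy, add_zero])]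
    congr 1
    ext v : 1
    rw [siegel_apply, siegel_apply, map_add]
  refine H889.C7.free_sum (fun a Q => s a • Q) (fun Q => by rw [hs0, one_smul])
    (fun a b Q => by rw [hsadd, mul_smul]) (fun a => (cjL (s a).1).toAddMonoidHom) (phi hx M j z) ?_ (SM hx M i j) ?_ ?_
  · intro a Q
    have h1 := phi_act j z (s a) Q
    have h2 : cj (s a).1 z = z := hz a
    rw [h2] at h1
    exact h1
  · intro a Q hQ
    exact smul_mem_SM (s a) rfl hQ
  · intro a Q hQ h
    by_contra ha
    rw [mem_SM] at hQ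
    exact hQ (fixC_of_fixed C hw0 hw (hy a) (fun h0 => ha (hqy a h0)) rfl h)

/-- Two orthogonal vectors with the same value over the field with three elements. -/
theorem exists_pair [Fintype F] (H : Hyp7 q) (h3 : Fintype.card F = 3) {w : κ → F} (hw0 : w ≠ 0) (hw : q w = 0) :
    ∃ y₁ y₂, polar q w y₁ = 0 ∧ polar q w y₂ = 0 ∧ polar q y₁ y₂ = 0 ∧ q y₁ = q y₂ ∧ q y₁ ≠ 0 := by
  have h2 := H.two
  have hq := H.nd
  have hk3 := H.three
  have hk4 : 4 ≤ Fintype.card κ := by
    have h5 := H.five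
    rw [Nat.card_eq_fintype_card, h3] at h5
    by_contra hcon
    have := h5 (by omega)
    omega
  have hfr : Module.finrank F (κ → F) = Fintype.card κ := Module.finrank_fintype_fun_eq_card F
  obtain ⟨w', hyp⟩ := LieClassical.OrthTrans.exists_hyp hq hw hw0
  obtain ⟨h, hh1, hh2, hh3⟩ := exists_nonsing_perp hq (by rw [hfr]; exact hk3) hyp
  -- singular vectors in the orthogonal space
  have claim : ∀ z, z ≠ 0 → polar q w z = 0 → polar q w' z = 0 → polar q h z = 0 → q z = 0 →
      ∃ y₁ y₂, polar q w y₁ = 0 ∧ polar q w y₂ = 0 ∧ polar q y₁ y₂ = 0 ∧ q y₁ = q y₂ ∧ q y₁ ≠ 0 := by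
    intro z hz0 hz1 hz2 hz3 hz4
    obtain ⟨z', hz'⟩ := hq.exists_polar_eq hz0 1
    have hhh : polar q h h ≠ 0 := by rw [polar_self']; exact mul_ne_zero h2 hh3
    set z'' := z' - polar q w' z' • w - polar q w z' • w' - (polar q h z' * (polar q h h)⁻¹) • h with hz''
    have a1 : polar q w z'' = 0 := by
      rw [hz'']
      simp only [polar_sub_right, polar_smul_right, hyp.polar_left, hyp.pair, hh1, smul_eq_mul]
      ring
    have a2 : polar q w' z'' = 0 := by
      rw [hz'']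
      simp only [polar_sub_right, polar_smul_right, hyp.polar_right, hyp.pair', hh2, smul_eq_mul]
      ring
    have a3 : polar q h z'' = 0 := by
      rw [hz'']
      simp only [polar_sub_right, polar_smul_right, polar_comm q h w, polar_comm q h w', hh1, hh2, smul_eq_mul]
      rw [mul_assoc, inv_mul_cancel₀ hhh]
      ring
    have a4 : polar q z z'' = 1 := by
      rw [hz'']
      simp only [polar_sub_right, polar_smul_right, polar_comm q z w, polar_comm q z w', polar_comm q z h, hz1, hz2,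
        hz3, hz', smul_eq_mul]
      ring
    refine ⟨h, (q h - q z'') • z + z'', hh1, ?_, ?_, ?_, hh3⟩
    · rw [polar_add_right, polar_smul_right, hz1, a1, smul_zero, add_zero]
    · rw [polar_add_right, polar_smul_right, hz3, a3, smul_zero, add_zero]
    · rw [Q_add, QuadraticMap.map_smul, hz4, polar_smul_left, a4]
      simp
  obtain ⟨z, hz0, hz⟩ := exists_perp_ne (Q := q) ![w, w', h] (by rw [hfr]; omega)
  have b1 : polar q w z = 0 := hz 0
  have b2 : polar q w' z = 0 := hz 1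
  have b3 : polar q h z = 0 := hz 2
  rcases three_cases h3 hh3 (q z) with h4 | h4 | h4
  · exact claim z hz0 b1 b2 b3 h4
  · exact ⟨h, z, hh1, b1, b3, h4.symm, hh3⟩
  · by_cases hk : Fintype.card κ = 4
    · exfalso
      have c1 : q (h + z) = 0 := by rw [Q_add, b3, h4]; ring
      have c2 : polar q w (h + z) = 0 := by rw [polar_add_right, hh1, b1, add_zero]
      obtain ⟨c, hc⟩ := H.four hk w (h + z) hw0 hw c1 c2
      have c3 : polar q w' (h + z) = 0 := by rw [polar_add_right, hh2, b2, add_zero]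
      rw [hc, polar_smul_right, hyp.pair', smul_eq_mul, mul_one] at c3
      rw [c3, zero_smul] at hc
      have c4 := congrArg (polar q h) hc
      rw [polar_add_right, b3, add_zero, polar_zero_right, polar_self'] at c4
      exact mul_ne_zero h2 hh3 c4
    · obtain ⟨z₃, hz₃0, hz₃⟩ := exists_perp_ne (Q := q) ![w, w', h, z] (by rw [hfr]; omega)
      have d1 : polar q w z₃ = 0 := hz₃ 0
      have d2 : polar q w' z₃ = 0 := hz₃ 1
      have d3 : polar q h z₃ = 0 := hz₃ 2
      have d4 : polar q z z₃ = 0 := hz₃ 3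
      rcases three_cases h3 hh3 (q z₃) with h5 | h5 | h5
      · exact claim z₃ hz₃0 d1 d2 d3 h5
      · exact ⟨h, z₃, hh1, d1, d3, h5.symm, hh3⟩
      · exact ⟨z, z₃, b1, d1, d4, by rw [h4, h5], by rw [h4]; exact neg_ne_zero.2 hh3⟩

/-- **The form of the moved sum.** -/
theorem moved_form [Finite F] (C : Ctx q M) {i j : ι} [Fintype (M ⧸ NN hx M j)] {w : κ → F} (hw0 : w ≠ 0)
    (hw : q w = 0) {z : Module.End F ((ι → κ) → F)}
    (hz : ∀ (y : κ → F) (hy : polar q w y = 0), cj (slE i (siegel q w y hw hy)) z = z) :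
    ∃ T : Module.End F ((ι → κ) → F), EM hx M i j z = sl i (om q w) * T * sl i (om q w) := by
  classical
  have := Fintype.ofFinite F
  have h2 := C.h7.two
  have hq := C.h7.nd
  have hk3 := C.h7.three
  have hfr : Module.finrank F (κ → F) = Fintype.card κ := Module.finrank_fintype_fun_eq_card F
  by_cases h5 : 5 ≤ Fintype.card F
  · obtain ⟨w', hyp⟩ := LieClassical.OrthTrans.exists_hyp hq hw hw0
    obtain ⟨y₀, hy₀, -, hqy₀⟩ := exists_nonsing_perp hq (by rw [hfr]; exact hk3) hyp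
    let y : F →+ (κ → F) := (LinearMap.toSpanSingleton F (κ → F) y₀).toAddMonoidHom
    have hy : ∀ a, polar q w (y a) = 0 := fun a => by
      show polar q w (a • y₀) = 0
      rw [polar_smul_right, hy₀, smul_zero]
    obtain ⟨Y, hY⟩ := exists_trace C (i := i) (j := j) (hx := hx) hw0 hw y hy (fun a ha => by
      have h1 : q (a • y₀) = 0 := ha
      rw [QuadraticMap.map_smul, smul_eq_mul] at h1
      exact mul_self_eq_zero.1 ((mul_eq_zero.1 h1).resolve_right hqy₀)) (fun a => hz _ (hy a))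
    obtain ⟨s0, s1, s2, s3⟩ := sums_of_five h5
    set N := sl (ι := ι) i (nn q w y₀) with hN
    set Ω := sl (ι := ι) i (om q w) with hΩ
    have h1 : ∀ a, cj (slE i (siegel q w (y a) hw (hy a))) Y = Y + a • (N * Y - Y * N) +
        (a * a) • (-(q y₀ • (Ω * Y + Y * Ω)) - N * Y * N) +
        (a * a * a) • (q y₀ • (Ω * Y * N - N * Y * Ω)) + (a * a * (a * a)) • ((q y₀ * q y₀) • (Ω * Y * Ω)) := by
      intro a
      have e1 : nn q w (y a) = a • nn q w y₀ := nn_smul_right a w y₀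
      have e2 : q (y a) = a * a * q y₀ := by
        show q (a • y₀) = _
        rw [QuadraticMap.map_smul, smul_eq_mul]
      rw [cj_siegel, e1, e2, sl_smul, ← hN, ← hΩ]
      simp only [smul_mul_assoc, mul_smul_comm]
      module
    simp only [h1] at hY
    have h8 := hY.trans (sum_poly s0 s1 s3 _ _ _ _ _)
    rw [s2, zero_smul, zero_add] at h8
    refine ⟨((∑ c : F, c ^ 4) * (q y₀ * q y₀)) • Y, ?_⟩
    rw [h8, mul_smul_comm, smul_mul_assoc, smul_smul]
  · have h3 : Fintype.card F = 3 := by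
      have hlt : 1 < Fintype.card F := Fintype.one_lt_card
      have hne2 : ¬ 2 ∣ Fintype.card F := by
        rintro ⟨m, hm⟩
        have h1 := FiniteField.cast_card_eq_zero F
        rw [hm] at h1
        push_cast at h1
        have h4 : ((m : ℕ) : F) = 0 := (mul_eq_zero.1 h1).resolve_left h2
        -- `card F = 2 m` with `m = 1, 2`
        have h6 : m = 1 ∨ m = 2 := by omega
        rcases h6 with rfl | rfl
        · simp at h4
        · exact h2 (by exact_mod_cast h4)
      omega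
    obtain ⟨y₁, y₂, hy₁, hy₂, hy₁₂, hqe, hq1⟩ := exists_pair C.h7 h3 hw0 hw
    let y : F × F →+ (κ → F) :=
      ((LinearMap.toSpanSingleton F (κ → F) y₁).coprod (LinearMap.toSpanSingleton F (κ → F) y₂)).toAddMonoidHom
    have hya : ∀ a, y a = a.1 • y₁ + a.2 • y₂ := fun a => rfl
    have hy : ∀ a, polar q w (y a) = 0 := fun a => by
      rw [hya, polar_add_right, polar_smul_right, polar_smul_right, hy₁, hy₂, smul_zero, smul_zero, add_zero]
    have hqa : ∀ a, q (y a) = (a.1 * a.1 + a.2 * a.2) * q y₁ := fun a => by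
      rw [hya, Q_add, QuadraticMap.map_smul, QuadraticMap.map_smul, polar_smul_left, polar_smul_right, hy₁₂, ← hqe]
      simp only [smul_eq_mul]
      ring
    obtain ⟨Y, hY⟩ := exists_trace C (i := i) (j := j) (hx := hx) hw0 hw y hy (fun a ha => by
      rw [hqa] at ha
      have h1 := (mul_eq_zero.1 ha).resolve_right hq1
      have key : ∀ c : F, c ≠ 0 → c * c = 1 := by
        intro c hc
        rcases three_cases h3 one_ne_zero c with h | h | h
        · exact absurd h hc
        · rw [h, one_mul]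
        · rw [h]; ring
      have h10 : (1 : F) ≠ 0 := one_ne_zero
      by_cases ha1 : a.1 = 0
      · rw [ha1, zero_mul, zero_add] at h1
        exact Prod.ext ha1 (mul_self_eq_zero.1 h1)
      · exfalso
        rw [key _ ha1] at h1
        by_cases ha2 : a.2 = 0
        · rw [ha2, zero_mul, add_zero] at h1
          exact h10 h1
        · rw [key _ ha2] at h1
          exact h2 (by rw [← h1]; norm_num)) (fun a => hz _ (hy a))
    obtain ⟨s0, s1, s3⟩ := sums_of_three h3
    set N₁ := sl (ι := ι) i (nn q w y₁) with hN₁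
    set N₂ := sl (ι := ι) i (nn q w y₂) with hN₂
    set Ω := sl (ι := ι) i (om q w) with hΩ
    set e := q y₁ with he
    have h1 : ∀ a b : F, cj (slE i (siegel q w (y (a, b)) hw (hy (a, b)))) Y =
        (Y + a • (N₁ * Y - Y * N₁) - ((a * a) * e) • (Ω * Y + Y * Ω) - (a * a) • (N₁ * Y * N₁) +
          ((a * a * a) * e) • (Ω * Y * N₁ - N₁ * Y * Ω) + ((a * a) * (a * a) * (e * e)) • (Ω * Y * Ω)) +
        b • ((N₂ * Y - Y * N₂) - a • (N₁ * Y * N₂ + N₂ * Y * N₁) + ((a * a) * e) • (Ω * Y * N₂ - N₂ * Y * Ω)) +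
        (b * b) • ((-(e • (Ω * Y + Y * Ω)) - N₂ * Y * N₂) + a • (e • (Ω * Y * N₁ - N₁ * Y * Ω)) +
          (a * a) • ((2 * (e * e)) • (Ω * Y * Ω)) + (a * a * a) • (0 : Module.End F ((ι → κ) → F)) +
          (a * a * (a * a)) • (0 : Module.End F ((ι → κ) → F))) +
        (b * b * b) • (e • (Ω * Y * N₂ - N₂ * Y * Ω)) +
        (b * b * (b * b)) • ((e * e) • (Ω * Y * Ω)) := by
      intro a b
      have e1 : nn q w (y (a, b)) = a • nn q w y₁ + b • nn q w y₂ := by
        rw [hya, nn_add_right, nn_smul_right, nn_smul_right]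
      rw [cj_siegel, e1, hqa, sl_add, sl_smul, sl_smul, ← hN₁, ← hN₂, ← hΩ]
      simp only [add_mul, mul_add, smul_mul_assoc, mul_smul_comm]
      module
    rw [Fintype.sum_prod_type] at hY
    simp only [h1] at hY
    have h6 : ∀ a : F, ∑ b : F,
        ((Y + a • (N₁ * Y - Y * N₁) - ((a * a) * e) • (Ω * Y + Y * Ω) - (a * a) • (N₁ * Y * N₁) +
          ((a * a * a) * e) • (Ω * Y * N₁ - N₁ * Y * Ω) + ((a * a) * (a * a) * (e * e)) • (Ω * Y * Ω)) +
        b • ((N₂ * Y - Y * N₂) - a • (N₁ * Y * N₂ + N₂ * Y * N₁) + ((a * a) * e) • (Ω * Y * N₂ - N₂ * Y * Ω)) +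
        (b * b) • ((-(e • (Ω * Y + Y * Ω)) - N₂ * Y * N₂) + a • (e • (Ω * Y * N₁ - N₁ * Y * Ω)) +
          (a * a) • ((2 * (e * e)) • (Ω * Y * Ω)) + (a * a * a) • (0 : Module.End F ((ι → κ) → F)) +
          (a * a * (a * a)) • (0 : Module.End F ((ι → κ) → F))) +
        (b * b * b) • (e • (Ω * Y * N₂ - N₂ * Y * Ω)) +
        (b * b * (b * b)) • ((e * e) • (Ω * Y * Ω))) = _ := fun a => sum_poly s0 s1 s3 _ _ _ _ _
    simp only [h6] at hY
    have h8 : ∑ a : F, ((-(e • (Ω * Y + Y * Ω)) - N₂ * Y * N₂) + a • (e • (Ω * Y * N₁ - N₁ * Y * Ω)) +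
          (a * a) • ((2 * (e * e)) • (Ω * Y * Ω)) + (a * a * a) • (0 : Module.End F ((ι → κ) → F)) +
          (a * a * (a * a)) • (0 : Module.End F ((ι → κ) → F))) = (∑ c : F, c ^ 2) • ((2 * (e * e)) • (Ω * Y * Ω)) +
          (∑ c : F, c ^ 4) • (0 : Module.End F ((ι → κ) → F)) := sum_poly s0 s1 s3 _ _ _ _ _
    rw [Finset.sum_add_distrib, ← Finset.smul_sum, h8, smul_zero, add_zero] at hY
    have h7 : ∑ c : F, (∑ c : F, c ^ 4) • (e * e) • (Ω * Y * Ω) = 0 := by
      rw [Finset.sum_const, Finset.card_univ, h3, ← Nat.cast_smul_eq_nsmul F]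
      have : ((3 : ℕ) : F) = 0 := by rw [← h3]; exact FiniteField.cast_card_eq_zero F
      rw [this, zero_smul]
    rw [h7, add_zero] at hY
    refine ⟨((∑ c : F, c ^ 2) * ((∑ c : F, c ^ 2) * (2 * (e * e)))) • Y, ?_⟩
    rw [hY, mul_smul_comm, smul_mul_assoc, smul_smul, smul_smul, mul_assoc]

end ctx

end Cfsg.Agent.H900.C7
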