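import Cfsg.Agent.H900.C7.Fix
import Cfsg.Agent.H889.C7.Free

/-!
# Partial traces onto a slot and the sum over the conjugates
-/

set_option autoImplicit false
set_option linter.unusedSectionVars false
set_option linter.unusedSimpArgs false
set_option linter.unusedVariables false

namespace Cfsg.Agent.H900.C7

open QuadraticMap hiding proj
open Cfsg.Agent.LieClassical.OrthCore Cfsg.Agent.LieClassical.OrthTrans
open Cfsg.Agent.H882.Ten Cfsg.Agent.H883.C7 Cfsg.Agent.LieClassical.OrthFinite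

variable {F : Type*} [Field F] {κ : Type*} [Fintype κ] [DecidableEq κ] {ι : Type*} [Fintype ι] [DecidableEq ι]
  {q : QuadraticForm F (κ → F)} {M : Subgroup (((ι → κ) → F) ≃ₗ[F] ((ι → κ) → F))}

theorem trace_cj {V : Type*} [AddCommGroup V] [Module F V] (g : V ≃ₗ[F] V) (a : Module.End F V) :
    LinearMap.trace F V (cj g a) = LinearMap.trace F V a := by
  rw [cj_eq_mul, LinearMap.trace_mul_comm, ← mul_assoc, toEnd_inv_mul, one_mul]

theorem smulRight_add' {U : Type*} [AddCommGroup U] [Module F U] (φ : U →ₗ[F] F) (u u' : U) :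
    φ.smulRight (u + u') = φ.smulRight u + φ.smulRight u' := by
  ext v; simp only [LinearMap.smulRight_apply, LinearMap.add_apply, smul_add]

theorem smulRight_smul' {U : Type*} [AddCommGroup U] [Module F U] (φ : U →ₗ[F] F) (c : F) (u : U) :
    φ.smulRight (c • u) = c • φ.smulRight u := by
  ext v; simp only [LinearMap.smulRight_apply, LinearMap.smul_apply]; rw [smul_comm]

theorem mul_smulRight' {U : Type*} [AddCommGroup U] [Module F U] (x : Module.End F U) (φ : U →ₗ[F] F) (u : U) :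
    x * φ.smulRight u = φ.smulRight (x u) := by
  ext v; simp only [LinearMap.smulRight_apply, Module.End.mul_apply, map_smul]

/-- The partial trace onto slot `j`. -/
noncomputable def ptr (j : ι) (z : Module.End F ((ι → κ) → F)) : Module.End F (κ → F) where
  toFun u b := LinearMap.trace F _ (z * sl j ((LinearMap.proj b).smulRight u))
  map_add' u u' := by
    funext b
    rw [smulRight_add', sl_add, mul_add, map_add]; rfl
  map_smul' c u := by
    funext b
    rw [smulRight_smul', sl_smul, mul_smul_comm, map_smul]; rfl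

theorem ptr_apply (j : ι) (z : Module.End F ((ι → κ) → F)) (u : κ → F) (b : κ) :
    ptr j z u b = LinearMap.trace F _ (z * sl j ((LinearMap.proj b).smulRight u)) := rfl

theorem eq_sum_smulRight (f : Module.End F (κ → F)) :
    f = ∑ b : κ, (LinearMap.proj b : (κ → F) →ₗ[F] F).smulRight (f (Pi.single b 1)) := by
  refine LinearMap.ext fun v => ?_
  rw [LinearMap.sum_apply]
  have hv : v = ∑ b, v b • (Pi.single b (1 : F) : κ → F) := by
    conv_lhs => rw [← Pi.basisFun F κ |>.sum_repr v]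
    exact Finset.sum_congr rfl fun b _ => by rw [Pi.basisFun_apply, Pi.basisFun_repr]
  conv_lhs => rw [hv]
  rw [map_sum]
  exact Finset.sum_congr rfl fun b _ => by rw [map_smul]; rfl

theorem trace_ptr (j : ι) (z : Module.End F ((ι → κ) → F)) (f : Module.End F (κ → F)) :
    LinearMap.trace F _ (ptr j z * f) = LinearMap.trace F _ (z * sl j f) := by
  have h1 : ∀ (u : κ → F) (b : κ), LinearMap.trace F _ (ptr j z * (LinearMap.proj b : (κ → F) →ₗ[F] F).smulRight u) =
      LinearMap.trace F _ (z * sl j ((LinearMap.proj b : (κ → F) →ₗ[F] F).smulRight u)) := by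
    intro u b
    rw [mul_smulRight', LinearMap.trace_smulRight]
    rfl
  rw [eq_sum_smulRight f, Finset.mul_sum, map_sum]
  have h3 : sl (ι := ι) j (∑ b : κ, (LinearMap.proj b : (κ → F) →ₗ[F] F).smulRight (f (Pi.single b 1))) =
      ∑ b : κ, sl j ((LinearMap.proj b : (κ → F) →ₗ[F] F).smulRight (f (Pi.single b 1))) := map_sum (slA j) _ _
  rw [h3, Finset.mul_sum, map_sum]
  exact Finset.sum_congr rfl fun b _ => h1 _ _

theorem eq_of_trace {x y : Module.End F (κ → F)}
    (h : ∀ f : Module.End F (κ → F), LinearMap.trace F _ (x * f) = LinearMap.trace F _ (y * f)) : x = y := by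
  refine LinearMap.ext fun u => funext fun b => ?_
  have h1 := h ((LinearMap.proj b : (κ → F) →ₗ[F] F).smulRight u)
  rw [mul_smulRight', mul_smulRight', LinearMap.trace_smulRight, LinearMap.trace_smulRight] at h1
  exact h1

theorem ptr_unique {j : ι} {z : Module.End F ((ι → κ) → F)} {x : Module.End F (κ → F)}
    (h : ∀ f : Module.End F (κ → F), LinearMap.trace F _ (z * sl j f) = LinearMap.trace F _ (x * f)) :
    ptr j z = x := eq_of_trace fun f => by rw [trace_ptr, h]

theorem ptr_add (j : ι) (z z' : Module.End F ((ι → κ) → F)) : ptr j (z + z') = ptr j z + ptr j z' :=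
  ptr_unique fun f => by rw [add_mul, map_add, add_mul, map_add, trace_ptr, trace_ptr]

theorem ptr_smul (j : ι) (c : F) (z : Module.End F ((ι → κ) → F)) : ptr j (c • z) = c • ptr j z :=
  ptr_unique fun f => by rw [smul_mul_assoc, map_smul, smul_mul_assoc, map_smul, trace_ptr]

/-- The partial trace as an element of the slot algebra. -/
noncomputable def Tp (j : ι) (z : Module.End F ((ι → κ) → F)) : Module.End F ((ι → κ) → F) := sl j (ptr j z)

theorem Tp_add (j : ι) (z z' : Module.End F ((ι → κ) → F)) : Tp j (z + z') = Tp j z + Tp j z' := by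
  rw [Tp, ptr_add, sl_add]; rfl

theorem Tp_smul (j : ι) (c : F) (z : Module.End F ((ι → κ) → F)) : Tp j (c • z) = c • Tp j z := by
  rw [Tp, ptr_smul, sl_smul]; rfl

theorem Tp_conj {x : κ → F} (hx : x ≠ 0) {j : ι} {n : ((ι → κ) → F) ≃ₗ[F] ((ι → κ) → F)} (h : Carries n j j)
    (z : Module.End F ((ι → κ) → F)) : Tp j (cj n z) = cj n (Tp j z) := by
  obtain ⟨T, hT⟩ := carries_inner hx h
  have h1 : ptr j (cj n z) = cj T (ptr j z) := by
    refine ptr_unique fun f => ?_
    have e1 : cj T (ptr j z) * f = cj T (ptr j z * cj T⁻¹ f) := by rw [cj_mul', cj_cj_inv]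
    have e2 : cj n z * sl j f = cj n (z * sl j (cj T⁻¹ f)) := by rw [cj_mul', hT, cj_cj_inv]
    rw [e1, e2, trace_cj, trace_cj, trace_ptr]
  rw [Tp, h1, Tp, hT]

/-- The summand. -/
noncomputable def phi {x : κ → F} (hx : x ≠ 0) (M : Subgroup (((ι → κ) → F) ≃ₗ[F] ((ι → κ) → F))) (j : ι)
    (z : Module.End F ((ι → κ) → F)) : M ⧸ NN hx M j → Module.End F ((ι → κ) → F) :=
  Quotient.lift (fun g : M => cj g.1 (Tp j (cj g.1⁻¹ z))) (by
    intro a b hab
    have h1 : a⁻¹ * b ∈ NN hx M j := QuotientGroup.leftRel_apply.1 hab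
    set x' : M := a⁻¹ * b with hx'
    have hb : b = a * x' := by rw [hx', mul_inv_cancel_left]
    have h2 : Carries x'.1 j j := h1
    change cj a.1 (Tp j (cj a.1⁻¹ z)) = cj b.1 (Tp j (cj b.1⁻¹ z))
    have e1 : b.1 = a.1 * x'.1 := by rw [hb]; rfl
    rw [e1, mul_inv_rev, ← cj_cj, ← cj_cj, Tp_conj hx (carries_symm hx h2), cj_cj_inv])

variable {x : κ → F} {hx : x ≠ 0}

theorem phi_mk (j : ι) (z : Module.End F ((ι → κ) → F)) (g : M) :
    phi hx M j z (g : M ⧸ NN hx M j) = cj g.1 (Tp j (cj g.1⁻¹ z)) := rfl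

theorem phi_act (j : ι) (z : Module.End F ((ι → κ) → F)) (g : M) (Q : M ⧸ NN hx M j) :
    phi hx M j (cj g.1 z) (g • Q) = cj g.1 (phi hx M j z Q) := by
  obtain ⟨a, rfl⟩ := QuotientGroup.mk_surjective Q
  have e1 : g • ((a : M) : M ⧸ NN hx M j) = ((g * a : M) : M ⧸ NN hx M j) := rfl
  rw [e1, phi_mk, phi_mk]
  have e2 : (g * a : M).1 = g.1 * a.1 := rfl
  rw [e2, mul_inv_rev, ← cj_cj, ← cj_cj, cj_inv_cj]

theorem phi_add (j : ι) (z z' : Module.End F ((ι → κ) → F)) (Q : M ⧸ NN hx M j) :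
    phi hx M j (z + z') Q = phi hx M j z Q + phi hx M j z' Q := by
  obtain ⟨a, rfl⟩ := QuotientGroup.mk_surjective Q
  rw [phi_mk, phi_mk, phi_mk, cj_add', Tp_add, cj_add']

theorem phi_smul (j : ι) (c : F) (z : Module.End F ((ι → κ) → F)) (Q : M ⧸ NN hx M j) :
    phi hx M j (c • z) Q = c • phi hx M j z Q := by
  obtain ⟨a, rfl⟩ := QuotientGroup.mk_surjective Q
  rw [phi_mk, phi_mk, cj_smul', Tp_smul, cj_smul']

/-- commutes with the slot algebra -/
def Cm (i : ι) (c : Module.End F ((ι → κ) → F)) : Prop := ∀ f : Module.End F (κ → F), c * sl i f = sl i f * c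

theorem Cm.mul {i : ι} {c c' : Module.End F ((ι → κ) → F)} (h : Cm i c) (h' : Cm i c') : Cm i (c * c') :=
  fun f => by rw [mul_assoc, h' f, ← mul_assoc, h f, mul_assoc]

/-- A coset whose algebra is that of slot `i`, or commutes with it. -/
def FixC (hx : x ≠ 0) (M : Subgroup (((ι → κ) → F) ≃ₗ[F] ((ι → κ) → F))) (i j : ι) (Q : M ⧸ NN hx M j) : Prop :=
  ∃ g : M, (g : M ⧸ NN hx M j) = Q ∧ (Carries g.1 j i ∨ ∀ f : Module.End F (κ → F), Cm i (cj g.1 (sl j f)))

theorem trace_comm_zero {i : ι} (x₁ x₂ : Module.End F (κ → F)) {ρ : Module.End F ((ι → κ) → F)} (hρ : Cm i ρ) :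
    LinearMap.trace F _ (sl i (x₁ * x₂ - x₂ * x₁) * ρ) = 0 := by
  rw [sl_sub, sl_mul, sl_mul, sub_mul, map_sub]
  have e1 : sl i x₂ * sl i x₁ * ρ = (sl i x₂ * ρ) * sl i x₁ := by rw [mul_assoc, ← hρ, mul_assoc]
  have e2 : sl i x₁ * sl i x₂ * ρ = sl i x₁ * (sl i x₂ * ρ) := by rw [mul_assoc]
  rw [e1, e2, LinearMap.trace_mul_comm, sub_self]

/-- `w ∧ y` is a commutator. -/
theorem nn_eq_comm (hq : Nondeg q) {w y : κ → F} (hw0 : w ≠ 0) (hw : q w = 0) (hy : polar q w y = 0) :
    ∃ x₁ x₂ : Module.End F (κ → F), nn q w y = x₁ * x₂ - x₂ * x₁ := by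
  obtain ⟨w', hyp⟩ := LieClassical.OrthTrans.exists_hyp hq hw hw0
  refine ⟨nn q w' w, nn q w (y - polar q w' y • w), ?_⟩
  have h1 := nn_bracket (nn q w' w) (skew_nn w' w) w (y - polar q w' y • w)
  have e1 : nn q w' w w = w := by
    rw [nn_apply, hyp.polar_left, hyp.pair', zero_smul, one_smul, sub_zero]
  have e2 : nn q w' w (y - polar q w' y • w) = 0 := by
    rw [nn_apply, polar_sub_right, polar_sub_right, polar_smul_right, polar_smul_right, hyp.polar_left, hyp.pair', hy]
    simp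
  have e3 : nn q w (y - polar q w' y • w) = nn q w y := by
    rw [nn_sub_right, nn_smul_right, nn_self, smul_zero, sub_zero]
  have e4 : nn q w 0 = 0 := by
    have := nn_smul_right (q := q) (0 : F) w (0 : κ → F)
    rwa [zero_smul, zero_smul] at this
  rw [e1, e2, e4, add_zero, e3] at h1
  rw [e3]
  exact h1.symm

/-- Commuting cosets contribute nothing. -/
theorem phi_zero_of_comm (hq : Nondeg q) {i j : ι} {g : M} (hg : ∀ f : Module.End F (κ → F), Cm i (cj g.1 (sl j f)))
    {w y : κ → F} (hw0 : w ≠ 0) (hw : q w = 0) (hy : polar q w y = 0) {c : Module.End F ((ι → κ) → F)}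
    (hc : Cm i c) : phi hx M j (sl i (nn q w y) * c) (g : M ⧸ NN hx M j) = 0 := by
  rw [phi_mk]
  have h1 : ptr j (cj g.1⁻¹ (sl i (nn q w y) * c)) = 0 := by
    refine ptr_unique fun f => ?_
    rw [zero_mul, map_zero]
    have e1 : cj g.1⁻¹ (sl i (nn q w y) * c) * sl j f =
        cj g.1⁻¹ (sl i (nn q w y) * (c * cj g.1 (sl j f))) := by
      rw [← mul_assoc, cj_mul' g.1⁻¹ _ (cj g.1 (sl j f)), cj_inv_cj]
    rw [e1, trace_cj]
    obtain ⟨x₁, x₂, hx12⟩ := nn_eq_comm hq hw0 hw hy
    rw [hx12]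
    exact trace_comm_zero x₁ x₂ (hc.mul (hg f))
  rw [Tp, h1]
  have : sl (ι := ι) j (0 : Module.End F (κ → F)) = 0 := map_zero (slA j)
  rw [this, cj_zero']

/-- Carrying cosets contribute an element of the slot algebra. -/
theorem phi_of_carries {i j : ι} {g : M} (hg : Carries g.1 j i) (z : Module.End F ((ι → κ) → F)) :
    ∃ f : Module.End F (κ → F), phi hx M j z (g : M ⧸ NN hx M j) = sl i f := by
  rw [phi_mk, Tp]
  exact carries_iff.1 hg _

end Cfsg.Agent.H900.C7
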