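import Cfsg.Agent.H900.C7.Moved

/-!
# The equivariant operator `Φ`
-/

set_option autoImplicit false
set_option linter.unusedSectionVars false
set_option linter.unusedSimpArgs false
set_option linter.unusedVariables false

namespace Cfsg.Agent.H900.C7

open QuadraticMap hiding proj
open Cfsg.Agent.LieClassical.OrthCore Cfsg.Agent.LieClassical.OrthTrans
open Cfsg.Agent.H882.Ten Cfsg.Agent.H883.C7 Cfsg.Agent.LieClassical.OrthFinite

variable {F : Type*} [Field F] {κ : Type*} [Fintype κ] [DecidableEq κ] {ι : Type*} [Fintype ι] [DecidableEq ι]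
  {q : QuadraticForm F (κ → F)} {M : Subgroup (((ι → κ) → F) ≃ₗ[F] ((ι → κ) → F))}

theorem cj_nn {V : Type*} [AddCommGroup V] [Module F V] {Q : QuadraticForm F V} {t : V ≃ₗ[F] V} (ht : t ∈ O Q)
    (a b : V) : cj t (nn Q a b) = nn Q (t a) (t b) := by
  ext v
  have h1 : ∀ u, t (t⁻¹ u) = u := fun u => LinearEquiv.apply_symm_apply t u
  rw [cj_apply, nn_apply, nn_apply, map_sub, map_smul, map_smul]
  conv_rhs => rw [← h1 v]
  rw [polar_map ht, polar_map ht]

theorem Cm.cj_slE {i : ι} {c : Module.End F ((ι → κ) → F)} (hc : Cm i c) (t : (κ → F) ≃ₗ[F] (κ → F)) :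
    cj (slE i t) c = c := by
  rw [cj_eq_iff, slE_toEnd, hc]

theorem cj_slE_mul {i : ι} {c : Module.End F ((ι → κ) → F)} (hc : Cm i c) (t : (κ → F) ≃ₗ[F] (κ → F))
    (f : Module.End F (κ → F)) : cj (slE i t) (sl i f * c) = sl i (cj t f) * c := by
  rw [cj_mul', C7.cj_slE, hc.cj_slE]

theorem slot_comm {i : ι} {c : Module.End F ((ι → κ) → F)} (hc : Cm i c) {f f' : Module.End F (κ → F)}
    (h : f * f' = f' * f) : sl i f * c * sl i f' = sl i f' * (sl i f * c) := by
  rw [mul_assoc, hc, ← mul_assoc, ← sl_mul, h, sl_mul, mul_assoc]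

section ctx

variable {x : κ → F} {hx : x ≠ 0}

/-- **The moved sum vanishes.** -/
theorem EM_zero [Finite F] (C : Ctx q M) {i j : ι} [Fintype (M ⧸ NN hx M j)] {w y : κ → F} (hw0 : w ≠ 0)
    (hw : q w = 0) (hy : polar q w y = 0) (hqy : q y ≠ 0) {c : Module.End F ((ι → κ) → F)} (hc : Cm i c) :
    EM hx M i j (sl i (nn q w y) * c) = 0 := by
  have h2 := C.h7.two
  have hq := C.h7.nd
  obtain ⟨w', hyp⟩ := LieClassical.OrthTrans.exists_hyp hq hw hw0
  -- the form of the values
  have form : ∀ (w₁ y₁ : κ → F), w₁ ≠ 0 → q w₁ = 0 → polar q w₁ y₁ = 0 → ∃ T : Module.End F ((ι → κ) → F),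
      EM hx M i j (sl i (nn q w₁ y₁) * c) = sl i (om q w₁) * T * sl i (om q w₁) := by
    intro w₁ y₁ hw₁0 hw₁ hy₁
    refine moved_form C hw₁0 hw₁ fun y' hy' => cj_siegel_comm i hw₁ hy' (slot_comm hc ?_) (slot_comm hc ?_)
    · rw [nn_mul_perp hw₁ hy₁ hy', nn_mul_perp hw₁ hy' hy₁, polar_comm]
    · rw [nn_om hw₁ hy₁, om_nn hw₁ hy₁]
  set z := y - polar q w' y • w with hz
  have hwz : polar q w z = 0 := by rw [hz, polar_sub_right, polar_smul_right, hy, hyp.polar_left]; simp
  have hw'z : polar q w' z = 0 := by rw [hz, polar_sub_right, polar_smul_right, hyp.pair']; simp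
  have hzw' : polar q z w' = 0 := by rw [polar_comm]; exact hw'z
  have hzw : polar q z w = 0 := by rw [polar_comm]; exact hwz
  have hqz : q z = q y := by
    rw [hz, sub_eq_add_neg, ← neg_smul, Q_add, QuadraticMap.map_smul, hw, polar_smul_right, polar_comm q y w, hy]
    simp
  have hqz0 : q z ≠ 0 := by rw [hqz]; exact hqy
  have hz0 : z ≠ 0 := by
    intro h
    rw [h, QuadraticMap.map_zero] at hqz0
    exact hqz0 rfl
  have hnn : nn q w z = nn q w y := by rw [hz, nn_sub_right, nn_smul_right, nn_self, smul_zero, sub_zero]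
  rw [← hnn]
  clear_value z
  have hmz : polar q w' (-z) = 0 := by rw [polar_neg_right, hw'z, neg_zero]
  -- the two Siegel elements
  set t := siegel q w' z hyp.right hw'z with ht
  set t' := siegel q w' (-z) hyp.right hmz with ht'
  have htt' : t⁻¹ = t' := siegel_inv hyp.right hw'z hmz
  have htt : t'⁻¹ = t := by rw [← htt', inv_inv]
  have t1 : t w = w + z - q z • w' := by
    rw [ht, siegel_apply, hyp.pair', hzw]
    module
  have t2 : t z = z - (2 * q z) • w' := by
    rw [ht, siegel_apply, hw'z, polar_self']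
    module
  have t1' : t' w = w - z - q z • w' := by
    rw [ht', siegel_apply, hyp.pair', polar_neg_left, hzw, QuadraticMap.map_neg]
    module
  have t2' : t' z = z + (2 * q z) • w' := by
    rw [ht', siegel_apply, hw'z, polar_neg_left, polar_self']
    module
  have htO : t ∈ O q := siegel_mem_O _ _
  have htO' : t' ∈ O q := siegel_mem_O _ _
  let s : M := ⟨slE i t, C.siegel_mem i hyp.right hw'z⟩
  let s' : M := ⟨slE i t', C.siegel_mem i hyp.right hmz⟩
  set Z := sl (ι := ι) i (nn q w z) * c with hZ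
  have e1 : cj s.1 Z = sl i (nn q (w + z - q z • w') (z - (2 * q z) • w')) * c := by
    show cj (slE i t) Z = _
    rw [hZ, cj_slE_mul hc, cj_nn htO, t1, t2]
  have e2 : cj s'.1 Z = sl i (nn q (w - z - q z • w') (z + (2 * q z) • w')) * c := by
    show cj (slE i t') Z = _
    rw [hZ, cj_slE_mul hc, cj_nn htO', t1', t2']
  have e3 : cj s.1 Z + cj s'.1 Z = (2 : F) • Z + (2 * q z) • (sl i (nn q w' z) * c) := by
    rw [e1, e2, hZ, ← add_mul, ← sl_add, ← smul_mul_assoc, ← smul_mul_assoc, ← add_mul, ← sl_smul, ← sl_smul,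
      ← sl_add]
    congr 2
    simp only [nn_add_left, nn_sub_left, nn_add_right, nn_sub_right, nn_smul_left, nn_smul_right, nn_self]
    rw [nn_swap z w']
    module
  have e4 := congrArg (EM hx M i j) e3
  rw [EM_add, EM_add, EM_smul, EM_smul, EM_cj s (t := t) rfl, EM_cj s' (t := t') rfl] at e4
  obtain ⟨T, hT⟩ := form w z hw0 hw hwz
  obtain ⟨T', hT'⟩ := form w' z hyp.right_ne hyp.right hw'z
  rw [← hZ] at hT
  rw [hT'] at e4
  set X := EM hx M i j Z with hX
  -- values
  have v0 : ∀ a, X (ten F κ i a z) = 0 := by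
    intro a
    rw [hT, Module.End.mul_apply, sl_ten, om_apply, hwz, zero_smul, map_zero, map_zero]
  have v1 : ∀ a, ∃ b, X (ten F κ i a w') = ten F κ i b w := by
    intro a
    rw [hT, Module.End.mul_apply, Module.End.mul_apply, om_eq_smulRight, sl_smulRight]
    exact ⟨_, rfl⟩
  have v2 : ∀ a, X (ten F κ i a w') = 0 := by
    intro a
    obtain ⟨b, hb⟩ := v1 a
    have e5 := LinearMap.congr_fun e4 (ten F κ i a z)
    rw [LinearMap.add_apply, LinearMap.add_apply, LinearMap.smul_apply, LinearMap.smul_apply, v0, smul_zero, zero_add,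
      Module.End.mul_apply, Module.End.mul_apply, sl_ten, om_apply, hw'z, zero_smul, map_zero, map_zero, map_zero,
      smul_zero, cj_apply, cj_apply] at e5
    have f1 : (s.1)⁻¹ (ten F κ i a z) = ten F κ i a (z + (2 * q z) • w') := by
      show (slE i t)⁻¹ (ten F κ i a z) = _
      rw [← map_inv, slE_ten, htt', t2']
    have f2 : (s'.1)⁻¹ (ten F κ i a z) = ten F κ i a (z - (2 * q z) • w') := by
      show (slE i t')⁻¹ (ten F κ i a z) = _
      rw [← map_inv, slE_ten, htt, t2]
    have f3 : ∀ b, s.1 (ten F κ i b w) = ten F κ i b (w + z - q z • w') := fun b => by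
      show slE i t (ten F κ i b w) = _
      rw [slE_ten, t1]
    have f4 : ∀ b, s'.1 (ten F κ i b w) = ten F κ i b (w - z - q z • w') := fun b => by
      show slE i t' (ten F κ i b w) = _
      rw [slE_ten, t1']
    rw [f1, f2] at e5
    simp only [map_add, map_sub, map_smul, map_neg, v0, hb, zero_add, zero_sub, f3, f4] at e5
    simp only [← map_add, ← map_sub, ← map_smul] at e5
    have e6 : (4 * q z) • ten F κ i b z = 0 := by
      rw [← e5]
      simp only [map_add, map_sub, map_smul]
      module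
    have h4 : (4 : F) * q z ≠ 0 := by
      have : (4 : F) = 2 * 2 := by norm_num
      rw [this]
      exact mul_ne_zero (mul_ne_zero h2 h2) hqz0
    have e7 := (smul_eq_zero.1 e6).resolve_left h4
    have hb0 := eq_zero_of_t (isTen F κ i) e7 hz0
    rw [hb, hb0, map_zero, LinearMap.zero_apply]
  refine ext_t (isTen F κ i) fun a u => ?_
  have e8 : X (ten F κ i a u) = polar q w u • X (ten F κ i a w') := by
    rw [hT, Module.End.mul_apply, Module.End.mul_apply, Module.End.mul_apply, Module.End.mul_apply, sl_ten, sl_ten,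
      om_apply, om_apply, hyp.pair, one_smul, map_smul, map_smul, map_smul]
  rw [e8, v2, smul_zero, LinearMap.zero_apply]

/-- The equivariant operator. -/
noncomputable def Phi (hx : x ≠ 0) (M : Subgroup (((ι → κ) → F) ≃ₗ[F] ((ι → κ) → F))) (j : ι)
    [Fintype (M ⧸ NN hx M j)] (z : Module.End F ((ι → κ) → F)) : Module.End F ((ι → κ) → F) :=
  ∑ Q : M ⧸ NN hx M j, phi hx M j z Q

theorem Phi_add {j : ι} [Fintype (M ⧸ NN hx M j)] (z z' : Module.End F ((ι → κ) → F)) :
    Phi hx M j (z + z') = Phi hx M j z + Phi hx M j z' := by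
  simp only [Phi, phi_add, Finset.sum_add_distrib]

theorem Phi_smul {j : ι} [Fintype (M ⧸ NN hx M j)] (c : F) (z : Module.End F ((ι → κ) → F)) :
    Phi hx M j (c • z) = c • Phi hx M j z := by
  simp only [Phi, phi_smul, Finset.smul_sum]

theorem Phi_cj {j : ι} [Fintype (M ⧸ NN hx M j)] (g : M) (z : Module.End F ((ι → κ) → F)) :
    Phi hx M j (cj g.1 z) = cj g.1 (Phi hx M j z) := by
  have e1 : cj g.1 (Phi hx M j z) = ∑ Q : M ⧸ NN hx M j, cj g.1 (phi hx M j z Q) := by
    rw [Phi, ← cjL_apply, map_sum]; rfl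
  rw [e1, Phi, ← Equiv.sum_comp (MulAction.toPerm g)]
  exact Finset.sum_congr rfl fun Q _ => phi_act j z g Q

open scoped Classical in
theorem Phi_eq {i j : ι} [Fintype (M ⧸ NN hx M j)] (z : Module.End F ((ι → κ) → F)) :
    Phi hx M j z = EM hx M i j z + ∑ Q ∈ (SM hx M i j)ᶜ, phi hx M j z Q :=
  (Finset.sum_add_sum_compl (SM hx M i j) _).symm

/-- `Φ` maps into the slot algebra. -/
theorem Phi_slot [Finite F] (C : Ctx q M) {i j : ι} [Fintype (M ⧸ NN hx M j)] {w y : κ → F} (hw0 : w ≠ 0)
    (hw : q w = 0) (hy : polar q w y = 0) (hqy : q y ≠ 0) {c : Module.End F ((ι → κ) → F)} (hc : Cm i c) :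
    ∃ f : Module.End F (κ → F), Phi hx M j (sl i (nn q w y) * c) = sl i f := by
  classical
  rw [Phi_eq (i := i), EM_zero C hw0 hw hy hqy hc, zero_add]
  refine Finset.sum_induction _ (fun X => ∃ f : Module.End F (κ → F), X = sl i f) ?_ ⟨0, ?_⟩ ?_
  · rintro _ _ ⟨f, rfl⟩ ⟨f', rfl⟩
    exact ⟨f + f', (sl_add i f f').symm⟩
  · exact (map_zero (slA i)).symm
  · intro Q hQ
    rw [Finset.mem_compl, mem_SM, not_not] at hQ
    obtain ⟨g, rfl, hg⟩ := hQ
    rcases hg with hg | hg
    · exact phi_of_carries hg _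
    · exact ⟨0, by rw [phi_zero_of_comm C.h7.nd hg hw0 hw hy hc]; exact (map_zero (slA i)).symm⟩

theorem Phi_self [Finite F] (C : Ctx q M) {j : ι} [Fintype (M ⧸ NN hx M j)] {w y : κ → F} (hw0 : w ≠ 0)
    (hw : q w = 0) (hy : polar q w y = 0) (hqy : q y ≠ 0) {c : Module.End F ((ι → κ) → F)} (hc : Cm j c) :
    Phi hx M j (sl j (nn q w y) * c) = Tp j (sl j (nn q w y) * c) := by
  classical
  rw [Phi_eq (i := j), EM_zero C hw0 hw hy hqy hc, zero_add]
  have hone : ((1 : M) : M ⧸ NN hx M j) ∈ (SM hx M j j)ᶜ := by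
    rw [Finset.mem_compl, mem_SM, not_not]
    exact ⟨1, rfl, Or.inl (carries_one j)⟩
  rw [← Finset.add_sum_erase _ _ hone, Finset.sum_eq_zero, add_zero]
  · rw [phi_mk]
    have e1 : (1 : M).1 = 1 := rfl
    rw [e1, inv_one, one_cj, one_cj]
  · intro Q hQ
    obtain ⟨h1, h3⟩ := Finset.mem_erase.1 hQ
    rw [Finset.mem_compl, mem_SM, not_not] at h3
    obtain ⟨g, rfl, hg⟩ := h3
    rcases hg with hg | hg
    · exfalso
      apply h1
      rw [eq_comm, QuotientGroup.eq, mem_NN]
      have : ((1 : M)⁻¹ * g : M).1 = g.1 := by rw [inv_one, one_mul]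
      rw [this]
      exact hg
    · exact phi_zero_of_comm C.h7.nd hg hw0 hw hy hc

end ctx

/-! ### an element with partial trace one -/

theorem exists_nonsing_vec {V : Type*} [AddCommGroup V] [Module F V] [Nontrivial V] {Q : QuadraticForm F V}
    (h2 : (2 : F) ≠ 0) (hQ : Nondeg Q) : ∃ a, polar Q a a ≠ 0 := by
  by_contra hcon
  push Not at hcon
  obtain ⟨v, hv⟩ := exists_ne (0 : V)
  apply hv
  refine hQ v fun y => ?_
  have h1 := hcon (v + y)
  rw [polar_add_left, polar_add_right, polar_add_right, hcon, hcon, polar_comm Q y v, zero_add, add_zero] at h1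
  have h3 : 2 * polar Q v y = 0 := by linear_combination h1
  exact (mul_eq_zero.1 h3).resolve_left h2

theorem exists_c0 (h2 : (2 : F) ≠ 0) (hq : Nondeg q) {x : κ → F} (hx : x ≠ 0) (j : ι) :
    ∃ c : Module.End F ((ι → κ) → F), Cm j c ∧ (∀ f : Module.End F (κ → F), Tp j (sl j f * c) = sl j f) ∧
      ∀ f : Module.End F (κ → F), Skew q f → Skew (QT q ι) (sl j f * c) := by
  have S := tst (ι := ι) h2 hq j
  have hneR : Nontrivial (({l // l ≠ j} → κ) → F) := by
    obtain ⟨b, -⟩ := Function.ne_iff.1 hx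
    have : Nonempty ({l // l ≠ j} → κ) := ⟨fun _ => b⟩
    exact Function.nontrivial
  obtain ⟨a, ha⟩ := exists_nonsing_vec (Q := QT q {l // l ≠ j}) h2 (nondeg_QT h2 hq)
  set lam := polar (QT q {l // l ≠ j}) a a with hlam
  let ia : (κ → F) →ₗ[F] ((ι → κ) → F) := ten F κ j a
  let pa : ((ι → κ) → F) →ₗ[F] (κ → F) := lam⁻¹ • S.cu a
  have hpa : ∀ b u, pa (ten F κ j b u) = (lam⁻¹ * polar (QT q {l // l ≠ j}) a b) • u := by
    intro b u
    show lam⁻¹ • S.cu a (ten F κ j b u) = _
    rw [S.cu_t, smul_smul]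
  let c : Module.End F ((ι → κ) → F) := ia ∘ₗ pa
  have hcb : ∀ b u, c (ten F κ j b u) = (lam⁻¹ * polar (QT q {l // l ≠ j}) a b) • ten F κ j a u := by
    intro b u
    show ten F κ j a (pa (ten F κ j b u)) = _
    rw [hpa, map_smul]
  have hCm : Cm j c := by
    intro f
    refine ext_t (isTen F κ j) fun b u => ?_
    rw [Module.End.mul_apply, Module.End.mul_apply, sl_ten, hcb, hcb, map_smul, sl_ten]
  refine ⟨c, hCm, fun f => ?_, fun f hf => ?_⟩
  · rw [Tp]
    congr 1
    refine ptr_unique fun f' => ?_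
    have e1 : sl j f * c * sl j f' = (sl j f ∘ₗ ia) ∘ₗ (pa ∘ₗ sl j f') := rfl
    have e2 : (pa ∘ₗ sl j f') ∘ₗ (sl j f ∘ₗ ia) = f' * f := by
      refine LinearMap.ext fun u => ?_
      show pa (sl j f' (sl j f (ten F κ j a u))) = f' (f u)
      rw [sl_ten, sl_ten, hpa, inv_mul_cancel₀ ha, one_smul]
    rw [e1, LinearMap.trace_comp_comm', e2, LinearMap.trace_mul_comm]
  · have key : (polarBilin (QT q ι)).compl₁₂ (sl j f * c) LinearMap.id =
        -((polarBilin (QT q ι)).compl₁₂ LinearMap.id (sl j f * c)) := by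
      refine ext_t2 (isTen F κ j) fun b u b' u' => ?_
      simp only [LinearMap.neg_apply, LinearMap.compl₁₂_apply, LinearMap.id_apply, Module.End.mul_apply, hcb, map_smul,
        sl_ten, LinearMap.smul_apply, polarBilin_apply_apply, S.pol, smul_eq_mul]
      rw [hf, polar_comm (QT q {l // l ≠ j}) b a]
      ring
    intro u v
    have h1 := LinearMap.congr_fun (LinearMap.congr_fun key u) v
    exact h1

/-! ### skew operators of the tensor power -/

theorem tp_ind {P : ((ι → κ) → F) → Prop} (hadd : ∀ a b, P a → P b → P (a + b)) (hsmul : ∀ (c : F) a, P a → P (c • a))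
    (htp : ∀ x, P (tp x)) (v : (ι → κ) → F) : P v := by
  have hv : v = ∑ a, v a • (Pi.single a (1 : F) : (ι → κ) → F) := by
    conv_lhs => rw [← Pi.basisFun F (ι → κ) |>.sum_repr v]
    exact Finset.sum_congr rfl fun b _ => by rw [Pi.basisFun_apply, Pi.basisFun_repr]
  rw [hv]
  refine Finset.sum_induction _ P hadd ?_ fun a _ => ?_
  · have := hsmul 0 _ (htp fun _ => 0)
    rwa [zero_smul] at this
  · rw [single_eq_tp]
    exact hsmul _ _ (htp _)

theorem rk_tp (h2 : (2 : F) ≠ 0) (x y : ι → (κ → F)) :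
    rk (QT q ι) (tp x) (tp y) = op (fun l => rk q (x l) (y l)) := by
  refine tp_ext fun v => ?_
  rw [rk_apply, op_tp, polar_tp h2]
  have : (fun i => (rk q (x i) (y i)) (v i)) = fun i => polar q (x i) (v i) • y i := rfl
  rw [this, tp_smul_all]

theorem op_update (h : ι → Module.End F (κ → F)) (i : ι) (g : Module.End F (κ → F)) :
    op (Function.update h i g) = sl i g * op (Function.update h i 1) := by
  rw [sl, ← op_mul]
  congr 1
  funext l
  by_cases hl : l = i
  · subst hl; rw [Function.update_self, Function.update_self, Function.update_self, mul_one]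
  · rw [Function.update_of_ne hl, Function.update_of_ne hl, Function.update_of_ne hl, one_mul]

theorem cm_op (h : ι → Module.End F (κ → F)) (i : ι) : Cm i (op (Function.update h i 1)) := by
  intro g
  rw [sl, ← op_mul, ← op_mul]
  congr 1
  funext l
  by_cases hl : l = i
  · subst hl; rw [Function.update_self, Function.update_self, mul_one, one_mul]
  · rw [Function.update_of_ne hl, Function.update_of_ne hl, one_mul, mul_one]

/-- Induction for skew operators of the tensor power. -/
theorem skewV_ind [hι : Nonempty ι] (H : Hyp7 q) {x₀ y₀ : κ → F} (hyp : Hyp q x₀ y₀) {P : Module.End F ((ι → κ) → F) → Prop}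
    (hadd : ∀ a b, P a → P b → P (a + b)) (hsmul : ∀ (c : F) a, P a → P (c • a))
    (hP : ∀ (i : ι) (w y : κ → F) (c : Module.End F ((ι → κ) → F)), w ≠ 0 → q w = 0 → polar q w y = 0 → q y ≠ 0 →
      Cm i c → P (sl i (nn q w y) * c)) {z : Module.End F ((ι → κ) → F)} (hz : Skew (QT q ι) z) : P z := by
  have h2 := H.two
  have hq := H.nd
  refine skew_ind h2 (nondeg_QT h2 hq) hadd hsmul (fun a b => ?_) hz
  -- one slot
  have h1 : ∀ (i : ι) (a b : κ → F) (c : Module.End F ((ι → κ) → F)), Cm i c → P (sl i (nn q a b) * c) := by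
    intro i a b c hc
    refine nn_of_sing h2 (by rw [Module.finrank_fintype_fun_eq_card]; exact H.three) hq hyp
      (P := fun n => P (sl i n * c)) (fun n n' hn hn' => ?_) (fun r n hn => ?_)
      (fun w y hw0 hw hy hqy => hP i w y c hw0 hw hy hqy hc) a b
    · rw [sl_add, add_mul]; exact hadd _ _ hn hn'
    · rw [sl_smul, smul_mul_assoc]; exact hsmul _ _ hn
  have h0 : ∀ z : Module.End F ((ι → κ) → F), P z → P 0 := by
    intro z hz
    have := hsmul 0 z hz
    rwa [zero_smul] at this
  have h3 : ∀ x y : ι → (κ → F), P (nn (QT q ι) (tp x) (tp y)) := by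
    intro x y
    rw [nn_eq_rk, rk_tp h2, rk_tp h2]
    set f : ι → Module.End F (κ → F) := fun l => rk q (x l) (y l) with hf
    set f' : ι → Module.End F (κ → F) := fun l => rk q (y l) (x l) with hf'
    have key : ∀ S : Finset ι, P (op (S.piecewise f f') - op f') := by
      intro S
      induction S using Finset.induction_on with
      | empty =>
        rw [Finset.piecewise_empty, sub_self]
        obtain ⟨i⟩ := hι
        exact h0 _ (h1 i 0 0 _ (cm_op f i))
      | insert i S hi ih =>
        rw [Finset.piecewise_insert]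
        have e1 : S.piecewise f f' = Function.update (S.piecewise f f') i (f' i) := by
          rw [← Finset.piecewise_eq_of_notMem S f f' hi, Function.update_eq_self]
        have e2 : op (Function.update (S.piecewise f f') i (f i)) - op f' =
            op (Function.update (S.piecewise f f') i (nn q (x i) (y i))) + (op (S.piecewise f f') - op f') := by
          have e3 : f i = nn q (x i) (y i) + f' i := by
            rw [nn_eq_rk]
            show rk q (x i) (y i) = rk q (x i) (y i) - rk q (y i) (x i) + rk q (y i) (x i)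
            rw [sub_add_cancel]
          rw [e3, op_update_add]
          conv_rhs => rw [e1]
          rw [Function.update_idem]
          abel
        rw [e2]
        refine hadd _ _ ?_ ih
        rw [op_update]
        exact h1 i _ _ _ (cm_op _ i)
    have := key Finset.univ
    rwa [Finset.piecewise_univ] at this
  have h4 : ∀ x b, P (nn (QT q ι) (tp x) b) := by
    intro x b
    refine tp_ind (P := fun b => P (nn (QT q ι) (tp x) b)) (fun a b ha hb => ?_) (fun r a ha => ?_)
      (fun y => h3 x y) b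
    · rw [nn_add_right]; exact hadd _ _ ha hb
    · rw [nn_smul_right]; exact hsmul _ _ ha
  refine tp_ind (P := fun a => P (nn (QT q ι) a b)) (fun a c ha hb => ?_) (fun r a ha => ?_)
    (fun x => h4 x b) a
  · rw [nn_add_left]; exact hadd _ _ ha hb
  · rw [nn_smul_left]; exact hsmul _ _ ha

end Cfsg.Agent.H900.C7
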