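import Cfsg.Agent.H900.C7.FixA
import Cfsg.Agent.H882.Ten.TI

/-!
# Unipotent isometries of the form `α ⊗ β`
-/

set_option autoImplicit false
set_option linter.unusedSectionVars false
set_option linter.unusedSimpArgs false
set_option linter.unusedVariables false

namespace Cfsg.Agent.H900.C7

open QuadraticMap hiding proj
open Cfsg.Agent.LieClassical.OrthCore Cfsg.Agent.LieClassical.OrthTrans
open Cfsg.Agent.H882.Ten Cfsg.Agent.H883.C7

section one

variable {F : Type*} {V : Type*} [Field F] [AddCommGroup V] [Module F V]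

theorem toEnd_pow (g : V ≃ₗ[F] V) (n : ℕ) : ((g ^ n : V ≃ₗ[F] V) : Module.End F V) = (g : Module.End F V) ^ n := by
  induction n with
  | zero => rfl
  | succ n ih => rw [pow_succ, pow_succ, toEnd_mul, ih]

theorem toEnd_inj {g h : V ≃ₗ[F] V} (e : (g : Module.End F V) = h) : g = h :=
  LinearEquiv.ext fun v => LinearMap.congr_fun e v

theorem lpow_succ (g : V ≃ₗ[F] V) (n : ℕ) (a : V) : (g ^ (n + 1)) a = (g ^ n) (g a) := by
  rw [pow_succ]; rfl

theorem pow_eq_one_of_cube {p : ℕ} [Fact p.Prime] [CharP F p] (hp3 : 3 ≤ p) {g : V ≃ₗ[F] V}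
    (h : ((g : Module.End F V) - 1) ^ 3 = 0) : g ^ p = 1 := by
  by_cases hV : Nontrivial V
  · have : CharP (Module.End F V) p := by
      exact charP_of_injective_algebraMap (algebraMap F (Module.End F V)).injective p
    apply toEnd_inj
    rw [toEnd_pow]
    have h5 : ((g : Module.End F V) - 1) ^ p = (g : Module.End F V) ^ p - 1 := by
      have := sub_pow_char_of_commute (p := p) (x := (g : Module.End F V)) (y := 1) (Commute.one_right _)
      rwa [one_pow] at this
    have h6 : ((g : Module.End F V) - 1) ^ p = 0 := by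
      obtain ⟨k, rfl⟩ := Nat.exists_eq_add_of_le hp3
      rw [pow_add, h, zero_mul]
    rw [h6] at h5
    exact sub_eq_zero.1 h5.symm
  · rw [not_nontrivial_iff_subsingleton] at hV
    ext v
    exact Subsingleton.elim _ _

theorem nil_of_pow {p : ℕ} [Fact p.Prime] [CharP F p] {g : V ≃ₗ[F] V} (h : g ^ p = 1) :
    IsNilpotent ((g : Module.End F V) - 1) := by
  by_cases hV : Nontrivial V
  · have : CharP (Module.End F V) p := by
      exact charP_of_injective_algebraMap (algebraMap F (Module.End F V)).injective p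
    refine ⟨p, ?_⟩
    have h5 : ((g : Module.End F V) - 1) ^ p = (g : Module.End F V) ^ p - 1 := by
      have := sub_pow_char_of_commute (p := p) (x := (g : Module.End F V)) (y := 1) (Commute.one_right _)
      rwa [one_pow] at this
    rw [h5, ← toEnd_pow, h]
    exact sub_self _
  · rw [not_nontrivial_iff_subsingleton] at hV
    refine ⟨1, ?_⟩
    ext v
    exact Subsingleton.elim _ _

end one

section two

variable {F : Type*} {U : Type*} {W : Type*} {V : Type*} [Field F] [AddCommGroup U] [Module F U]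
  [AddCommGroup W] [Module F W] [AddCommGroup V] [Module F V]
  {t : U →ₗ[F] W →ₗ[F] V} {QU : QuadraticForm F U} {QW : QuadraticForm F W} {Q : QuadraticForm F V}

theorem tm_pow (ht : IsTensorProduct t) (k : U ≃ₗ[F] U) (l : W ≃ₗ[F] W) (n : ℕ) :
    tm ht k l ^ n = tm ht (k ^ n) (l ^ n) := by
  induction n with
  | zero => rw [pow_zero, pow_zero, pow_zero, tm_one]
  | succ n ih => rw [pow_succ, pow_succ, pow_succ, ih, tm_mul]

theorem scalar_of_tm_one (ht : IsTensorProduct t) [Nontrivial U] {k : U ≃ₗ[F] U} {l : W ≃ₗ[F] W}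
    (h : tm ht k l = 1) : ∃ c : F, ∀ u, l u = c • u := by
  obtain ⟨a, ha⟩ := exists_ne (0 : U)
  refine scalar_of_all (l : W →ₗ[F] W) fun u => ?_
  by_contra hcon
  push Not at hcon
  obtain ⟨φ, hφ1, hφ2⟩ := exists_ne_of_ne hcon
  have h1 : t (k a) (l u) = t a u := by rw [← tm_apply ht, h]; rfl
  have h3 := congrArg (cW ht φ) h1
  rw [cW_apply, cW_apply, hφ1, zero_smul] at h3
  have h4 : k a = 0 := (smul_eq_zero.1 h3).resolve_left hφ2
  exact ha (k.injective (by rw [h4, map_zero]))

/-- Normal form of unipotent isometries `k ⊗ l`. -/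
theorem unip_form [Finite F] [Nontrivial U] [Nontrivial W] (S : TSt t QU QW Q) {k : U ≃ₗ[F] U} {l : W ≃ₗ[F] W}
    (hO : tm S.ten k l ∈ O Q) (hx : ((tm S.ten k l : Module.End F V) - 1) ^ 3 = 0) :
    ∃ (α : U ≃ₗ[F] U) (β : W ≃ₗ[F] W), tm S.ten k l = tm S.ten α β ∧ α ∈ O QU ∧ β ∈ O QW ∧
      IsNilpotent ((α : Module.End F U) - 1) ∧ IsNilpotent ((β : Module.End F W) - 1) := by
  obtain ⟨p, hp⟩ := CharP.exists F
  have hpp : p.Prime := CharP.char_is_prime F p
  have : Fact p.Prime := ⟨hpp⟩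
  have hp2 : p ≠ 2 := by
    rintro rfl
    apply S.two
    have := CharP.cast_eq_zero F 2
    exact_mod_cast this
  have hp3 : 3 ≤ p := by have := hpp.two_le; omega
  have hpow := pow_eq_one_of_cube hp3 hx
  rw [tm_pow] at hpow
  obtain ⟨c, hc⟩ := scalar_of_tm_one S.ten hpow
  obtain ⟨w₀, hw₀⟩ := exists_ne (0 : W)
  have hc0 : c ≠ 0 := by
    rintro rfl
    have := hc w₀
    rw [zero_smul] at this
    exact hw₀ ((l ^ p).injective (by rw [this, map_zero]))
  have hkp : ∀ a, c • (k ^ p) a = a := by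
    intro a
    have h1 : t ((k ^ p) a) ((l ^ p) w₀) = t a w₀ := by rw [← tm_apply S.ten, hpow]; rfl
    rw [hc, map_smul, ← LinearMap.smul_apply, ← map_smul] at h1
    exact t_left_inj S.ten hw₀ h1
  have : PerfectRing F p := inferInstance
  obtain ⟨e, he⟩ := (PerfectRing.bijective_frobenius (R := F) (p := p)).2 c
  have he' : e ^ p = c := he
  have he0 : e ≠ 0 := by
    rintro rfl
    rw [zero_pow hpp.ne_zero] at he'
    exact hc0 he'.symm
  set α : U ≃ₗ[F] U := LinearEquiv.smulOfNeZero F U e he0 * k with hα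
  set β : W ≃ₗ[F] W := LinearEquiv.smulOfNeZero F W e⁻¹ (inv_ne_zero he0) * l with hβ
  have hαa : ∀ a, α a = e • k a := fun a => rfl
  have hβa : ∀ a, β a = e⁻¹ • l a := fun a => rfl
  have hαm : ∀ (m : ℕ) a, (α ^ m) a = e ^ m • (k ^ m) a := by
    intro m
    induction m with
    | zero => intro a; simp
    | succ m ih =>
      intro a
      rw [lpow_succ, lpow_succ, hαa, map_smul, ih, smul_smul, ← pow_succ']
  have hβm : ∀ (m : ℕ) a, (β ^ m) a = e⁻¹ ^ m • (l ^ m) a := by
    intro m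
    induction m with
    | zero => intro a; simp
    | succ m ih =>
      intro a
      rw [lpow_succ, lpow_succ, hβa, map_smul, ih, smul_smul, ← pow_succ']
  have hαp : α ^ p = 1 := by
    ext a
    rw [hαm, he', hkp]; rfl
  have hβp : β ^ p = 1 := by
    ext a
    rw [hβm, hc, smul_smul, inv_pow, he', inv_mul_cancel₀ hc0, one_smul]; rfl
  have htm : tm S.ten k l = tm S.ten α β := by
    refine ext_t' S.ten fun a u => ?_
    rw [tm_apply, tm_apply, hαa, hβa, map_smul, map_smul, LinearMap.smul_apply, smul_smul, inv_mul_cancel₀ he0,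
      one_smul]
  refine ⟨α, β, htm, ?_, ?_, nil_of_pow hαp, nil_of_pow hβp⟩
  all_goals
    rw [htm] at hO
    obtain ⟨d, hd0, hd1, hd2⟩ := S.sim_of_mem_O hO
    have hdp : d = 1 := by
      have hm : ∀ (m : ℕ) x y, polar QU ((α ^ m) x) ((α ^ m) y) = d ^ m * polar QU x y := by
        intro m
        induction m with
        | zero => intro x y; simp
        | succ m ih =>
          intro x y
          rw [lpow_succ, lpow_succ, ih, hd1, pow_succ]
          ring
      obtain ⟨a, ha⟩ := exists_ne (0 : U)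
      obtain ⟨b, hb⟩ := S.ndU.exists_polar_eq ha 1
      have h1 := hm p a b
      rw [hαp, hb, mul_one] at h1
      have h3 : polar QU ((1 : U ≃ₗ[F] U) a) ((1 : U ≃ₗ[F] U) b) = 1 := hb
      rw [h3] at h1
      have h5 : (d - 1) ^ p = 0 := by
        rw [sub_pow_char, one_pow, ← h1, sub_self]
      exact sub_eq_zero.1 (pow_eq_zero_iff hpp.ne_zero |>.1 h5)
    rw [hdp] at hd1 hd2
  · exact mem_O_of_polar S.two fun x y => by rw [hd1, one_mul]
  · exact mem_O_of_polar S.two fun x y => by rw [hd2, inv_one, one_mul]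

/-- The case of dimension three. -/
theorem caseA3 [FiniteDimensional F U] [FiniteDimensional F W] [Nontrivial U]
    (S : TSt t QU QW Q) {α : U ≃ₗ[F] U} {β : W ≃ₗ[F] W} (hβ : β ∈ O QW)
    (hk : Module.finrank F W = 3)
    (hr : Module.finrank F (LinearMap.range ((β : Module.End F W) - 1)) = 2)
    (hle : ∀ y, β y = y → y ∈ LinearMap.range ((β : Module.End F W) - 1))
    (hα : IsNilpotent ((α : Module.End F U) - 1)) (hα1 : α ≠ 1)
    (hcube : ((tm S.ten α β : Module.End F V) - 1) ^ 3 = 0) {c : F} (hc0 : c ≠ 0) (hc1 : c ≠ 1) (hc2 : c ≠ 2)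
    {s : V ≃ₗ[F] V} (hs : (s : Module.End F V) = 1 + c • ((tm S.ten α β : Module.End F V) - 1) +
      (c * (c - 1) * 2⁻¹) • (((tm S.ten α β : Module.End F V) - 1) * ((tm S.ten α β : Module.End F V) - 1)))
    (hcar : ∀ w, w ≠ 0 → QW w = 0 → (∀ a, ∃ b, s (t a w) = t b w) →
      ∃ (α' : U ≃ₗ[F] U) (β' : W ≃ₗ[F] W), s = tm S.ten α' β') : False := by
  have h2 := S.two
  set ν : Module.End F W := (β : Module.End F W) - 1 with hν
  have hνa : ∀ v, β v = v + ν v := fun v => by
    have : ν v = β v - v := rfl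
    rw [this]; abel
  have hrn := LinearMap.finrank_range_add_finrank_ker ν
  have hkd : Module.finrank F (LinearMap.ker ν) = 1 := by omega
  -- a fixed vector of `α`
  obtain ⟨a₀, ha₀, ha₀'⟩ : ∃ a, a ≠ 0 ∧ α a = a := by
    obtain ⟨n, hn⟩ := hα
    obtain ⟨a, ha⟩ := exists_ne (0 : U)
    have hex : ∃ m : ℕ, (((α : Module.End F U) - 1) ^ m) a = 0 := ⟨n, by rw [hn, LinearMap.zero_apply]⟩
    classical
    have hm0 : Nat.find hex ≠ 0 := by
      intro h
      have h1 := Nat.find_spec hex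
      rw [h, pow_zero] at h1
      exact ha h1
    obtain ⟨m, hm⟩ := Nat.exists_eq_succ_of_ne_zero hm0
    refine ⟨(((α : Module.End F U) - 1) ^ m) a, Nat.find_min hex (by omega), ?_⟩
    have h1 := Nat.find_spec hex
    rw [hm, Nat.succ_eq_add_one, pow_succ', Module.End.mul_apply] at h1
    exact sub_eq_zero.1 h1
  have hν3 : ∀ u, ν (ν (ν u)) = 0 := by
    intro u
    have h1 : ∀ u, ((tm S.ten α β : Module.End F V) - 1) (t a₀ u) = t a₀ (ν u) := by
      intro u
      have : ((tm S.ten α β : Module.End F V) - 1) (t a₀ u) = tm S.ten α β (t a₀ u) - t a₀ u := rfl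
      rw [this, tm_apply, ha₀', hνa, map_add, add_sub_cancel_left]
    have h3 := LinearMap.congr_fun hcube (t a₀ u)
    rw [pow_succ, pow_two, Module.End.mul_apply, Module.End.mul_apply, h1, h1, h1, LinearMap.zero_apply] at h3
    by_contra hne
    exact t_ne S.ten ha₀ hne h3
  obtain ⟨u₁, hu₁⟩ : ∃ u, ν (ν u) ≠ 0 := by
    by_contra hcon
    push Not at hcon
    have h1 : LinearMap.range ν ≤ LinearMap.ker ν := by
      rintro _ ⟨u, rfl⟩
      exact hcon u
    have := Submodule.finrank_mono h1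
    omega
  set w := ν (ν u₁) with hw
  have hνw : ν w = 0 := hν3 u₁
  have hβw : β w = w := by rw [hνa, hνw, add_zero]
  have hww : QW w = 0 := (Q_zero_iff h2 w).2 (polar_fix hβ hβw (hle w hβw))
  have hspan : ∀ u, ∃ c : F, ν (ν u) = c • w := by
    intro u
    obtain ⟨c, hc⟩ := exists_smul_eq_of_finrank_eq_one hkd (x := ⟨w, hνw⟩)
      (fun h => hu₁ (congrArg Subtype.val h)) ⟨ν (ν u), hν3 u⟩
    exact ⟨c, (congrArg Subtype.val hc).symm⟩
  -- `s` commutes with `1 ⊗ β`
  set X : Module.End F V := (tm S.ten α β : Module.End F V) with hX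
  set B : Module.End F V := (tm S.ten 1 β : Module.End F V) - 1 with hB
  have hBt : ∀ a u, B (t a u) = t a (ν u) := by
    intro a u
    have : B (t a u) = tm S.ten 1 β (t a u) - t a u := rfl
    rw [this, tm_apply, hνa, map_add]
    exact add_sub_cancel_left _ _
  have hXB : X * B = B * X := by
    refine ext_t S.ten fun a u => ?_
    rw [Module.End.mul_apply, Module.End.mul_apply, hBt]
    have e1 : ∀ a u, X (t a u) = t (α a) (β u) := fun a u => tm_apply S.ten α β a u
    rw [e1, e1, hBt]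
    congr 1
    rw [hνa, hνa, map_add]
  have hsB : (s : Module.End F V) * B = B * s := by
    rw [hs]
    have e1 : (X - 1) * B = B * (X - 1) := by rw [sub_mul, hXB, one_mul, mul_sub B, mul_one]
    have e2 : (X - 1) * (X - 1) * B = B * ((X - 1) * (X - 1)) := by
      rw [mul_assoc, e1, ← mul_assoc, e1, mul_assoc]
    rw [add_mul, add_mul, mul_add, mul_add, one_mul, mul_one, smul_mul_assoc, mul_smul_comm, smul_mul_assoc,
      mul_smul_comm, e1, e2]
  have hsw : ∀ a, ∃ b, s (t a w) = t b w := by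
    intro a
    have h1 : s (t a w) = B (B (s (t a u₁))) := by
      have e1 : t a w = B (B (t a u₁)) := by rw [hBt, hBt]
      rw [e1]
      have e3 : ∀ v, s (B v) = B (s v) := fun v => LinearMap.congr_fun hsB v
      rw [e3, e3]
    rw [h1]
    have h3 : ∀ v, ∃ b, B (B v) = t b w := by
      intro v
      induction v using S.ten.inductionOn with
      | zero => exact ⟨0, by simp⟩
      | tmul x y =>
        rw [hBt, hBt]
        obtain ⟨c, hc⟩ := hspan y
        exact ⟨c • x, by rw [hc, map_smul, map_smul, LinearMap.smul_apply]⟩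
      | add x y hx hy =>
        obtain ⟨b, hb⟩ := hx
        obtain ⟨b', hb'⟩ := hy
        exact ⟨b + b', by rw [map_add, map_add, hb, hb', map_add, LinearMap.add_apply]⟩
    exact h3 _
  obtain ⟨α', β', hs'⟩ := hcar w hu₁ hww hsw
  -- functionals
  have hνν : ∀ a b : F, a • u₁ + b • ν u₁ ≠ w := by
    intro a b h
    have e1 := congrArg ν h
    have e2 := congrArg ν e1
    simp only [map_add, map_smul, hνw, hν3, smul_zero, add_zero, map_zero] at e1 e2
    have ha : a = 0 := (smul_eq_zero.1 e2).resolve_right hu₁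
    rw [ha, zero_smul, zero_add] at e1 h
    have hb : b = 0 := (smul_eq_zero.1 e1).resolve_right hu₁
    rw [hb, zero_smul] at h
    exact hu₁ h.symm
  have hνν' : ∀ a b : F, a • u₁ + b • w ≠ ν u₁ := by
    intro a b h
    have e1 := congrArg ν h
    have e2 := congrArg ν e1
    simp only [map_add, map_smul, hνw, hν3, smul_zero, add_zero, map_zero] at e1 e2
    have ha : a = 0 := (smul_eq_zero.1 e2).resolve_right hu₁
    rw [ha, zero_smul] at e1
    exact hu₁ e1.symm
  obtain ⟨φ₂, hφ₂, hφ₂'⟩ := Submodule.exists_le_ker_of_notMem (p := Submodule.span F {u₁, ν u₁}) (v := w) (by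
    intro h
    obtain ⟨a, b, hab⟩ := Submodule.mem_span_pair.1 h
    exact hνν a b hab)
  obtain ⟨φ₁, hφ₁, hφ₁'⟩ := Submodule.exists_le_ker_of_notMem (p := Submodule.span F {u₁, w}) (v := ν u₁) (by
    intro h
    obtain ⟨a, b, hab⟩ := Submodule.mem_span_pair.1 h
    exact hνν' a b hab)
  have f21 : φ₂ u₁ = 0 := hφ₂' (Submodule.subset_span (by simp))
  have f22 : φ₂ (ν u₁) = 0 := hφ₂' (Submodule.subset_span (by simp))
  have f11 : φ₁ u₁ = 0 := hφ₁' (Submodule.subset_span (by simp))
  have f12 : φ₁ w = 0 := hφ₁' (Submodule.subset_span (by simp))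
  set d : F := c * (c - 1) * 2⁻¹ with hd
  have hd0 : d ≠ 0 := mul_ne_zero (mul_ne_zero hc0 (sub_ne_zero.2 hc1)) (inv_ne_zero h2)
  have hcd : c - 2 * d ≠ 0 := by
    have e : c - 2 * d = c * (2 - c) := by
      rw [hd]
      field_simp
      ring
    rw [e]
    exact mul_ne_zero hc0 (sub_ne_zero.2 (Ne.symm hc2))
  have hexp : ∀ a, t (α' a) (β' u₁) = (1 - c + d) • t a u₁ + (c - 2 * d) • t (α a) (u₁ + ν u₁) +
      d • t (α (α a)) (u₁ + (2 : F) • ν u₁ + w) := by
    intro a
    have e1 : t (α' a) (β' u₁) = (s : Module.End F V) (t a u₁) := by rw [hs', LinearEquiv.coe_coe, tm_apply]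
    have e2 : ∀ a u, X (t a u) = t (α a) (β u) := fun a u => tm_apply S.ten α β a u
    rw [e1, hs]
    simp only [LinearMap.add_apply, LinearMap.smul_apply, Module.End.mul_apply, LinearMap.sub_apply,
      Module.End.one_apply, map_sub, e2, hνa, map_add, ← hw]
    simp only [map_add, map_smul]
    module
  have g2 : ∀ a, φ₂ (β' u₁) • α' a = (d * φ₂ w) • α (α a) := by
    intro a
    have e1 := congrArg (cW S.ten φ₂) (hexp a)
    simp only [map_add, map_smul, cW_apply, f21, f22, zero_smul, smul_zero, add_zero, zero_add] at e1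
    rw [e1, smul_smul]
  have g1 : ∀ a, φ₁ (β' u₁) • α' a = ((c - 2 * d) * φ₁ (ν u₁)) • α a + (d * 2 * φ₁ (ν u₁)) • α (α a) := by
    intro a
    have e1 := congrArg (cW S.ten φ₁) (hexp a)
    simp only [map_add, map_smul, cW_apply, f11, f12, zero_smul, smul_zero, add_zero, zero_add, smul_smul] at e1
    rw [e1, mul_assoc d]
  have hl2 : φ₂ (β' u₁) ≠ 0 := by
    intro h
    have e1 := g2 a₀
    rw [h, zero_smul, ha₀', ha₀'] at e1
    exact ha₀ ((smul_eq_zero.1 e1.symm).resolve_left (mul_ne_zero hd0 hφ₂))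
  -- `α` is a scalar
  have hsc : ∃ μ : F, ∀ b, μ • α b = ((c - 2 * d) * φ₁ (ν u₁)) • b := by
    refine ⟨φ₁ (β' u₁) * (φ₂ (β' u₁))⁻¹ * (d * φ₂ w) - d * 2 * φ₁ (ν u₁), fun b => ?_⟩
    obtain ⟨a, rfl⟩ := α.surjective b
    have e1 : α' a = ((φ₂ (β' u₁))⁻¹ * (d * φ₂ w)) • α (α a) := by
      rw [mul_smul, ← g2, smul_smul, inv_mul_cancel₀ hl2, one_smul]
    have e2 := g1 a
    rw [e1, smul_smul] at e2
    rw [sub_smul, mul_assoc, e2]
    abel
  obtain ⟨μ, hμ⟩ := hsc
  have hk1 : (c - 2 * d) * φ₁ (ν u₁) ≠ 0 := mul_ne_zero hcd hφ₁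
  have hμ1 : μ = (c - 2 * d) * φ₁ (ν u₁) := by
    have e1 := hμ a₀
    rw [ha₀'] at e1
    exact smul_left_injective F ha₀ e1
  apply hα1
  ext b
  have e1 := hμ b
  rw [hμ1] at e1
  exact smul_right_injective U hk1 e1

end two

end Cfsg.Agent.H900.C7
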